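import Cfsg.Agent.Lib.AltDeg.Move

/-!
# The degree of a linear representation of an alternating group
-/

set_option autoImplicit false

namespace Cfsg.Agent.Lib.AltDeg

open Equiv Equiv.Perm Cfsg.Agent.Lib.SchurAlt Module

/-- The bound. -/
def LB (F : Type*) [Field F] (r n : ℕ) : Prop := r ≤ n + 2 ∧ (n + 2 = r → (r : F) = 0)

theorem LB.of_le {F : Type*} [Field F] {r n : ℕ} (h : r ≤ n + 1) : LB F r n := ⟨by omega, fun e => by omega⟩

variable {r : ℕ} {F V : Type*} [Field F] [AddCommGroup V] [Module F V] [FiniteDimensional F V]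

namespace Rep

variable (ρ : Rep r F V)

theorem eigen_mem {x h : Perm (Fin r)} (hx : sign x = 1) (hh : sign h = 1) (hc : Commute h x) {μ : F} {v : V}
    (hv : v ∈ (ρ.R x).eigenspace μ) : ρ.R h v ∈ (ρ.R x).eigenspace μ := by
  rw [Module.End.mem_eigenspace_iff] at hv ⊢
  rw [← Module.End.mul_apply, ← (ρ.commute hh hx hc).eq, Module.End.mul_apply, hv, map_smul]

/-- A commutator moving an invariant space makes it at least a plane. -/
theorem two_le {a b : Perm (Fin r)} (ha : sign a = 1) (hb : sign b = 1) {W : Submodule F V}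
    (hWa : ∀ v ∈ W, ρ.R a v ∈ W) (hWb : ∀ v ∈ W, ρ.R b v ∈ W) {v : V} (hv : v ∈ W)
    (hne : ρ.R (a * b * a⁻¹ * b⁻¹) v ≠ v) : 2 ≤ finrank F W := by
  by_contra h
  have hv0 : v ≠ 0 := fun e => hne (by rw [e, map_zero])
  have hW : Submodule.span F {v} = W := Submodule.eq_of_le_of_finrank_le
    (by simpa [Submodule.span_singleton_le_iff_mem] using hv) (by rw [finrank_span_singleton hv0]; omega)
  obtain ⟨α, hα⟩ := Submodule.mem_span_singleton.1 (hW.ge (hWa v hv))
  obtain ⟨β, hβ⟩ := Submodule.mem_span_singleton.1 (hW.ge (hWb v hv))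
  have ha' : α • ρ.R a⁻¹ v = v := by
    rw [← map_smul, hα, ← Module.End.mul_apply, ρ.inv_mul ha, Module.End.one_apply]
  have hb' : β • ρ.R b⁻¹ v = v := by
    rw [← map_smul, hβ, ← Module.End.mul_apply, ρ.inv_mul hb, Module.End.one_apply]
  have α0 : α ≠ 0 := fun e => hv0 (by rw [← ha', e, zero_smul])
  have β0 : β ≠ 0 := fun e => hv0 (by rw [← hb', e, zero_smul])
  refine hne ?_
  rw [ρ.map_mul _ _ (by simp [ha, hb]) (by simp [hb]), ρ.map_mul _ _ (by simp [ha, hb]) (by simp [ha]),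
    ρ.map_mul _ _ ha hb, Module.End.mul_apply, Module.End.mul_apply, Module.End.mul_apply,
    show ρ.R b⁻¹ v = β⁻¹ • v from (inv_smul_eq_iff₀ β0).2 hb'.symm |>.symm, map_smul,
    show ρ.R a⁻¹ v = α⁻¹ • v from (inv_smul_eq_iff₀ α0).2 ha'.symm |>.symm]
  simp only [map_smul, ← hβ, ← hα, smul_smul]
  rw [show β⁻¹ * α⁻¹ * β * α = 1 by field_simp, one_smul]

theorem D_ne_bot (hr : 9 ≤ r) (hne : ∃ g, sign g = 1 ∧ ρ.R g ≠ 1) {a b c : Fin r} (hab : a ≠ b) (hac : a ≠ c)
    (hbc : b ≠ c) : ρ.R (tri a b c) ≠ 1 := fun h =>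
  (isThreeCycle_tri hab hac hbc).ne_one (faithful hr hne (sign_tri hab hac hbc) h)

end Rep

open Rep

variable [IsAlgClosed F]

/-- The eigenspace method. -/
theorem cycle_method (ρ : Rep r F V) (hr : 9 ≤ r) (hne : ∃ g, sign g = 1 ∧ ρ.R g ≠ 1) (f : Fin 8 → Fin r)
    (hf : Function.Injective f) (q m m' : ℕ) (hq : q.Prime) (hqF : (q : F) ≠ 0) (x g g1 g2 : Perm (Fin r))
    (hm : m * m' % q = 1) (hprim : Function.Injective fun k : Fin (q - 1) => m' ^ k.val % q)
    (hx : sign x = 1) (hg : sign g = 1) (hg1 : sign g1 = 1) (hg2 : sign g2 = 1) (hxq : x ^ q = 1)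
    (hgx : x ^ m * g = g * x) (c1 : Commute g1 (ds (f 4) (f 5) (f 6) (f 7)))
    (c2 : Commute g2 (ds (f 4) (f 5) (f 6) (f 7)))
    (hs : ds (f 0) (f 1) (f 2) (f 3) = (g1 * x * g1⁻¹) * (g2 * x * g2⁻¹)) (b : ℕ) (hb0 : 0 < b)
    (hW : ∀ (μ : F) (v : V), μ ≠ 1 → v ∈ (ρ.R x).eigenspace μ → ρ.R (ds (f 4) (f 5) (f 6) (f 7)) v ≠ v →
      b ≤ finrank F ((ρ.R x).eigenspace μ)) :
    (q - 1) * b ≤ finrank F V ∨ LB F r (finrank F V) := by
  have ne : ∀ i j : Fin 8, i ≠ j → f i ≠ f j := fun i j hij e => hij (hf e)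
  set s := ds (f 4) (f 5) (f 6) (f 7)
  have hss : sign s = 1 := sign_ds (ne 4 5 (by decide)) (ne 6 7 (by decide))
  have hX : ρ.R x ^ q = 1 := by rw [← ρ.R_pow hx, hxq, ρ.map_one]
  by_cases h : ∃ μ : F, μ ≠ 1 ∧ ∃ v, ρ.R x v = μ • v ∧ ρ.R s v ≠ v
  · obtain ⟨μ, hμ, v, hv, hv'⟩ := h
    have hmem := Module.End.mem_eigenspace_iff.2 hv
    refine Or.inl (eigen_bound (G := ρ.R g) hX ?_ (ρ.injective hg) hm hprim hq hμ (hW μ v hμ hmem hv') hb0)
    rw [← ρ.R_pow hx, ← ρ.map_mul _ _ (by simp [hx]) hg, hgx, ρ.map_mul _ _ hg hx]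
  · push Not at h
    have h0 := fix_range (Y := ρ.R s) hqF hX h
    have hconj : ∀ g', sign g' = 1 → Commute g' s → ∀ v ∈ ρ.D (g' * x * g'⁻¹), ρ.R s v = v := by
      intro g' hg' hc v hv
      have := ρ.zero_conj hg' hss hx h0
      rw [hc.eq, mul_inv_cancel_right] at this
      exact ρ.fix_D this hv
    refine Or.inr ?_
    have hz : ρ.Zero := ρ.zero_of_ds hr ⟨f, hf, ρ.zero_iff.2 fun v hv => by
      rw [hs] at hv
      obtain ⟨v1, h1, v2, h2, rfl⟩ := Submodule.mem_sup.1
        (ρ.D_mul (by rw [sign_conj]; exact hx) (by rw [sign_conj]; exact hx) hv)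
      rw [map_add, hconj g1 hg1 c1 v1 h1, hconj g2 hg2 c2 v2 h2]⟩
    exact natural_bound hr hz hne

/-- Nine dimensions from two Klein groups. -/
theorem klein_method (ρ : Rep r F V) (hr : 9 ≤ r) (hne : ∃ g, sign g = 1 ∧ ρ.R g ≠ 1) (h2 : (2 : F) ≠ 0) :
    9 ≤ finrank F V ∨ LB F r (finrank F V) := by
  classical
  let ι : Fin 8 ↪ Fin r := Fin.castLEEmb (by omega)
  let lift : Perm (Fin 8) → Perm (Fin r) := fun h => h.viaFintypeEmbedding ι
  have lmul : ∀ g h, lift (g * h) = lift g * lift h := fun g h => by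
    ext x
    by_cases hx : x ∈ Set.range ι
    · obtain ⟨y, rfl⟩ := hx; simp [lift]
    · simp [lift, Perm.viaFintypeEmbedding_apply_notMem_range _ _ hx]
  have lsgn : ∀ g, sign (lift g) = sign g := fun g => viaFintypeEmbedding_sign g ι
  let S1 : Perm (Fin 8) := swap 0 1 * swap 2 3
  let S2 : Perm (Fin 8) := swap 0 2 * swap 1 3
  let U1 : Perm (Fin 8) := swap 4 5 * swap 6 7
  let U2 : Perm (Fin 8) := swap 4 6 * swap 5 7
  let T : Perm (Fin 8) := swap 1 3 * swap 1 2
  let W : Perm (Fin 8) := swap 5 7 * swap 5 6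
  let R' : Perm (Fin 8) → Module.End F V := fun h => ρ.R (lift h)
  have Rmul : ∀ g h, sign g = 1 → sign h = 1 → R' (g * h) = R' g * R' h := fun g h hg hh => by
    show ρ.R (lift (g * h)) = _
    rw [lmul, ρ.map_mul _ _ ((lsgn g).trans hg) ((lsgn h).trans hh)]
  have R1 : R' 1 = 1 := by
    show ρ.R (lift 1) = 1
    rw [show lift 1 = 1 by
      ext x
      by_cases hx : x ∈ Set.range ι
      · obtain ⟨y, rfl⟩ := hx; simp [lift]
      · simp [lift, Perm.viaFintypeEmbedding_apply_notMem_range _ _ hx], ρ.map_one]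
  have comm : ∀ g h, sign g = 1 → sign h = 1 → g * h = h * g → ∀ v, R' g (R' h v) = R' h (R' g v) :=
    fun g h hg hh e v => by rw [← Module.End.mul_apply, ← Rmul g h hg hh, e, Rmul h g hh hg, Module.End.mul_apply]
  -- double transpositions lift
  have lds : ∀ a b c d : Fin 8, a ≠ b → c ≠ d → lift (swap a b * swap c d) = ds (ι a) (ι b) (ι c) (ι d) := by
    intro a b c d _ _
    have hsw : ∀ p q : Fin 8, lift (swap p q) = swap (ι p) (ι q) := fun p q => by
      ext x
      by_cases hx : x ∈ Set.range ι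
      · obtain ⟨y, rfl⟩ := hx
        simp only [lift, Perm.viaFintypeEmbedding_apply_image, ι.injective.swap_apply]
      · rw [show lift (swap p q) x = x from Perm.viaFintypeEmbedding_apply_notMem_range _ _ hx,
          swap_apply_of_ne_of_ne (fun e => hx ⟨p, e.symm⟩) (fun e => hx ⟨q, e.symm⟩)]
    rw [lmul, hsw, hsw]; rfl
  by_cases h0 : (R' U1 - 1) * (R' S1 - 1) = 0
  · refine Or.inr (natural_bound hr (ρ.zero_of_ds hr ⟨ι, ι.injective, ?_⟩) hne)
    rw [← lds 0 1 2 3 (by decide) (by decide), ← lds 4 5 6 7 (by decide) (by decide)]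
    exact h0
  left
  obtain ⟨w, hw⟩ : ∃ w, ((R' U1 - 1) * (R' S1 - 1)) w ≠ 0 := by
    by_contra hh
    push Not at hh
    exact h0 (LinearMap.ext hh)
  set v := ((R' U1 - 1) * (R' S1 - 1)) w with hvdef
  have sq : ∀ g, sign g = 1 → g * g = 1 → ∀ v, R' g (R' g v) = v := fun g hg e v => by
    rw [← Module.End.mul_apply, ← Rmul g g hg hg, e, R1, Module.End.one_apply]
  have neg : ∀ g, sign g = 1 → g * g = 1 → ∀ v, R' g (R' g v - v) = -(R' g v - v) := fun g hg e v => by
    rw [map_sub, sq g hg e]; abel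
  have v1 : R' U1 v = -v := by
    simp only [hvdef, Module.End.mul_apply, LinearMap.sub_apply, Module.End.one_apply]
    exact neg U1 (by decide) (by decide) _
  have v2 : R' S1 v = -v := by
    simp only [hvdef, Module.End.mul_apply, LinearMap.sub_apply, Module.End.one_apply, map_sub,
      comm S1 U1 (by decide) (by decide) (by decide), sq S1 (by decide) (by decide)]
    abel
  have split : ∀ G, sign G = 1 → G * G = 1 → ∀ v : V, v ≠ 0 → ∃ (ε : F) (v' : V), (ε = 1 ∨ ε = -1) ∧ v' ≠ 0 ∧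
      R' G v' = ε • v' ∧ ∀ H, sign H = 1 → H * G = G * H → ∀ c : F, R' H v = c • v → R' H v' = c • v' := by
    intro G hG e v hv
    by_cases hp : v + R' G v = 0
    · exact ⟨-1, v, Or.inr rfl, hv, by rw [neg_one_smul]; exact eq_neg_of_add_eq_zero_right hp, fun H _ _ c h => h⟩
    · refine ⟨1, v + R' G v, Or.inl rfl, hp, ?_, fun H hH hc c h => ?_⟩
      · rw [one_smul, map_add, sq G hG e, add_comm]
      · rw [map_add, comm H G hH hG hc, h, map_smul, smul_add]
  have hv0 : v ≠ 0 := hw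
  obtain ⟨ε, v', hε, hv'0, hv'ε, hkeep⟩ := split S2 (by decide) (by decide) v hv0
  obtain ⟨δ, z, hδ, hz0, hzδ, hkeep'⟩ := split U2 (by decide) (by decide) v' hv'0
  have z1 : R' S1 z = (-1 : F) • z := hkeep' S1 (by decide) (by decide) _
    (hkeep S1 (by decide) (by decide) _ (by rw [neg_one_smul, v2]))
  have z2 : R' S2 z = ε • z := hkeep' S2 (by decide) (by decide) _ hv'ε
  have z3 : R' U1 z = (-1 : F) • z := hkeep' U1 (by decide) (by decide) _
    (hkeep U1 (by decide) (by decide) _ (by rw [neg_one_smul, v1]))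
  have z12 : R' (S1 * S2) z = (-ε) • z := by
    rw [Rmul _ _ (by decide) (by decide), Module.End.mul_apply, z2, map_smul, z1, smul_smul, mul_neg_one]
  have z34 : R' (U1 * U2) z = (-δ) • z := by
    rw [Rmul _ _ (by decide) (by decide), Module.End.mul_apply, hzδ, map_smul, z3, smul_smul, mul_neg_one]
  let cS : Fin 3 → F := ![-1, ε, -ε]
  let cU : Fin 3 → F := ![-1, δ, -δ]
  let OS : Fin 3 → Perm (Fin 8) := ![S1, S2, S1 * S2]
  let OU : Fin 3 → Perm (Fin 8) := ![U1, U2, U1 * U2]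
  have eS : ∀ k, R' (OS k) z = cS k • z := by intro k; fin_cases k; exacts [z1, z2, z12]
  have eU : ∀ k, R' (OU k) z = cU k • z := by intro k; fin_cases k; exacts [z3, hzδ, z34]
  let g : Fin 3 × Fin 3 → Perm (Fin 8) := fun p => T ^ p.1.val * W ^ p.2.val
  have gs : ∀ p, sign (g p) = 1 := by decide
  have cjS : ∀ p : Fin 3 × Fin 3, ∀ k : Fin 3, OS k * g p = g p * OS (k + p.1) ∨ OS k * g p = g p * OS (k - p.1) := by decide
  have cjU : ∀ p : Fin 3 × Fin 3, ∀ k : Fin 3, OU k * g p = g p * OU (k + p.2) ∨ OU k * g p = g p * OU (k - p.2) := by decide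
  have cjS' : (∀ p : Fin 3 × Fin 3, ∀ k : Fin 3, OS k * g p = g p * OS (k + p.1)) ∨
      ∀ p : Fin 3 × Fin 3, ∀ k : Fin 3, OS k * g p = g p * OS (k - p.1) := by decide
  have cjU' : (∀ p : Fin 3 × Fin 3, ∀ k : Fin 3, OU k * g p = g p * OU (k + p.2)) ∨
      ∀ p : Fin 3 × Fin 3, ∀ k : Fin 3, OU k * g p = g p * OU (k - p.2) := by decide
  have n1 : (-1 : F) ≠ 1 := fun e => h2 (by linear_combination -e)
  have shift : ∀ (η : F), (η = 1 ∨ η = -1) → ∀ (c : Fin 3 → F), c = ![-1, η, -η] → ∀ i j : Fin 3,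
      (∀ k, c (k + i) = c (k + j)) → i = j := by
    intro η hη c hc i j h
    have h0 := h 0
    have h1 := h 1
    have h2' := h 2
    subst hc
    rcases hη with rfl | rfl <;> fin_cases i <;> fin_cases j <;> simp at h0 h1 h2' ⊢ <;>
      first | exact (n1 h0).elim | exact (n1 h1).elim | exact (n1 h2').elim | exact (n1 h0.symm).elim |
        exact (n1 h1.symm).elim | exact (n1 h2'.symm).elim
  have sS : ∀ p k, sign (OS k) = 1 ∧ sign (OU k) = 1 ∧ sign (g p) = 1 := by decide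
  obtain ⟨τS, hτS, hτS'⟩ : ∃ τ : Fin 3 → Fin 3, Function.Injective τ ∧
      ∀ p : Fin 3 × Fin 3, ∀ k, OS k * g p = g p * OS (k + τ p.1) := by
    rcases cjS' with h | h
    · exact ⟨id, Function.injective_id, h⟩
    · exact ⟨Neg.neg, neg_injective, fun p k => by rw [← sub_eq_add_neg]; exact h p k⟩
  obtain ⟨τU, hτU, hτU'⟩ : ∃ τ : Fin 3 → Fin 3, Function.Injective τ ∧
      ∀ p : Fin 3 × Fin 3, ∀ k, OU k * g p = g p * OU (k + τ p.2) := by
    rcases cjU' with h | h
    · exact ⟨id, Function.injective_id, h⟩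
    · exact ⟨Neg.neg, neg_injective, fun p k => by rw [← sub_eq_add_neg]; exact h p k⟩
  have hind : LinearIndependent F (fun p : Fin 3 × Fin 3 => R' (g p) z) := by
    refine linearIndependent_of_separated (fun l : Fin 3 ⊕ Fin 3 => R' (Sum.elim OS OU l))
      (fun p l => Sum.elim (fun k => cS (k + τS p.1)) (fun k => cU (k + τU p.2)) l) _ (fun p hp => ?_) ?_ ?_
    · exact hz0 (ρ.injective ((lsgn _).trans (gs p)) (hp.trans (map_zero _).symm))
    · rintro p (k | k)
      · show R' (OS k) (R' (g p) z) = _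
        rw [← Module.End.mul_apply, ← Rmul _ _ (sS p k).1 (gs p), hτS' p k,
          Rmul _ _ (gs p) (sS p (k + τS p.1)).1, Module.End.mul_apply, eS, map_smul]
        rfl
      · show R' (OU k) (R' (g p) z) = _
        rw [← Module.End.mul_apply, ← Rmul _ _ (sS p k).2.1 (gs p), hτU' p k,
          Rmul _ _ (gs p) (sS p (k + τU p.2)).2.1, Module.End.mul_apply, eU, map_smul]
        rfl
    · intro p p' e
      exact Prod.ext (hτS (shift ε hε cS rfl _ _ fun k => congrFun e (Sum.inl k)))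
        (hτU (shift δ hδ cU rfl _ _ fun k => congrFun e (Sum.inr k)))
  simpa using hind.fintype_card_le_finrank

/-- An involution of determinant one in dimension two is central. -/
theorem two_dim_involution {W : Type*} [AddCommGroup W] [Module F W] [FiniteDimensional F W]
    (hW : finrank F W = 2) (h2 : (2 : F) ≠ 0) {X : Module.End F W} (hX : X * X = 1) (hdet : LinearMap.det X = 1)
    (h1 : X ≠ 1) : X = -1 := by
  classical
  let b := Module.finBasisOfFinrankEq F W hW
  have e1 : LinearMap.toMatrix b b X * LinearMap.toMatrix b b X = 1 := by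
    rw [← LinearMap.toMatrix_mul, hX, LinearMap.toMatrix_one]
  have e2 : (LinearMap.toMatrix b b X).det = 1 := by rw [LinearMap.det_toMatrix]; exact hdet
  set M := LinearMap.toMatrix b b X with hM
  rw [Matrix.det_fin_two] at e2
  have a00 := congrArg (fun N : Matrix (Fin 2) (Fin 2) F => N 0 0) e1
  have a01 := congrArg (fun N : Matrix (Fin 2) (Fin 2) F => N 0 1) e1
  have a10 := congrArg (fun N : Matrix (Fin 2) (Fin 2) F => N 1 0) e1
  have a11 := congrArg (fun N : Matrix (Fin 2) (Fin 2) F => N 1 1) e1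
  simp [Matrix.mul_apply, Fin.sum_univ_two] at a00 a01 a10 a11
  have hd : M 0 0 * (M 0 0 + M 1 1) = 2 := by linear_combination a00 + e2
  have ht : M 0 0 + M 1 1 ≠ 0 := fun e => h2 (by rw [← hd, e, mul_zero])
  have hb0 : M 0 1 = 0 := by
    have : M 0 1 * (M 0 0 + M 1 1) = 0 := by linear_combination a01
    exact (mul_eq_zero.1 this).resolve_right ht
  have hc0 : M 1 0 = 0 := by
    have : M 1 0 * (M 0 0 + M 1 1) = 0 := by linear_combination a10
    exact (mul_eq_zero.1 this).resolve_right ht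
  rw [hb0, zero_mul, sub_zero] at e2
  rw [hb0, zero_mul, add_zero] at a00
  have hk : M 1 1 = M 0 0 := by linear_combination M 0 0 * e2 - M 1 1 * a00
  apply (LinearMap.toMatrix b b).injective
  rw [map_neg, LinearMap.toMatrix_one, ← hM]
  rcases mul_self_eq_one_iff.1 a00 with h | h
  · refine absurd ((LinearMap.toMatrix b b).injective ?_) h1
    rw [LinearMap.toMatrix_one, ← hM]
    ext i j
    fin_cases i <;> fin_cases j <;> simp [h, hk, hb0, hc0]
  · ext i j
    fin_cases i <;> fin_cases j <;> simp [h, hk, hb0, hc0]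

end Cfsg.Agent.Lib.AltDeg
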