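import Cfsg.Agent.Lib.AltDeg.Linear

/-!
# The degree bound for linear representations, by induction on the degree of the group
-/

set_option autoImplicit false

set_option maxRecDepth 4000

namespace Cfsg.Agent.Lib.AltDeg

open Equiv Equiv.Perm Cfsg.Agent.Lib.SchurAlt Module

universe u v

variable {F : Type u} [Field F] {V : Type v} [AddCommGroup V] [Module F V] {r : ℕ}

theorem cm {G : Type*} [Mul G] {a b : G} (h : a * b = b * a) : Commute a b := h

/-- The bound for every representation of a given alternating group. -/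
def Bounded (s : ℕ) (F : Type u) [Field F] : Prop :=
  ∀ (V : Type v) [AddCommGroup V] [Module F V] [FiniteDimensional F V] (σ : Rep s F V),
    (∃ g, sign g = 1 ∧ σ.R g ≠ 1) → LB F s (finrank F V)

theorem commute_via {s : ℕ} (ι : Fin s ↪ Fin r) (h : Perm (Fin s)) {g : Perm (Fin r)} (hg : ∀ y, g (ι y) = ι y) :
    Commute (h.viaFintypeEmbedding ι) g := by
  refine Equiv.ext fun x => ?_
  simp only [Perm.mul_apply]
  by_cases hx : x ∈ Set.range ι
  · obtain ⟨y, rfl⟩ := hx
    rw [hg, Perm.viaFintypeEmbedding_apply_image, hg]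
  · rw [Perm.viaFintypeEmbedding_apply_notMem_range _ _ hx, Perm.viaFintypeEmbedding_apply_notMem_range]
    rintro ⟨y, hy⟩
    exact hx ⟨y, g.injective ((hg y).trans hy)⟩

namespace Rep

variable (ρ : Rep r F V)

theorem restrict_ne {s : ℕ} (ι : Fin s ↪ Fin r) (W : Submodule F V)
    (hW : ∀ h : Perm (Fin s), sign h = 1 → ∀ v ∈ W, ρ.R (h.viaFintypeEmbedding ι) v ∈ W)
    {h : Perm (Fin s)} (hh : sign h = 1) {v : V} (hv : v ∈ W) (hne : ρ.R (h.viaFintypeEmbedding ι) v ≠ v) :
    (ρ.restrict ι W hW).R h ≠ 1 := by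
  intro e
  have := congrArg Subtype.val (LinearMap.congr_fun e ⟨v, hv⟩)
  refine hne ?_
  simpa [restrict, hh] using this

/-- A moved invariant subspace is large. -/
theorem lower [FiniteDimensional F V] {s : ℕ} (IH : Bounded.{u, v} s F) (ι : Fin s ↪ Fin r) (W : Submodule F V)
    (hW : ∀ h : Perm (Fin s), sign h = 1 → ∀ v ∈ W, ρ.R (h.viaFintypeEmbedding ι) v ∈ W)
    {a b c : Fin s} (hab : a ≠ b) (hac : a ≠ c) (hbc : b ≠ c) {v : V} (hv : v ∈ W)
    (hne : ρ.R (tri (ι a) (ι b) (ι c)) v ≠ v) : s ≤ finrank F W + 2 :=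
  (IH W (ρ.restrict ι W hW) ⟨tri a b c, sign_tri hab hac hbc,
    ρ.restrict_ne ι W hW (sign_tri hab hac hbc) hv (by rw [via_tri ι hab hac hbc]; exact hne)⟩).1

theorem three_le [FiniteDimensional F V] [IsAlgClosed F] (ρ : Rep 11 F V) (h2 : (2 : F) ≠ 0) {x : Perm (Fin 11)}
    (hx : sign x = 1) (hfix : ∀ y : Fin 6, x (Fin.natAdd 5 y) = Fin.natAdd 5 y) {μ : F} {v : V}
    (hv : v ∈ (ρ.R x).eigenspace μ) (hne : ρ.R (ds 5 6 7 8) v ≠ v) :
    3 ≤ finrank F ((ρ.R x).eigenspace μ) := by
  set W := (ρ.R x).eigenspace μ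
  let ι : Fin 6 ↪ Fin 11 := Fin.natAddEmb 5
  have hW : ∀ h : Perm (Fin 6), sign h = 1 → ∀ w ∈ W, ρ.R (h.viaFintypeEmbedding ι) w ∈ W := fun h hh w hw =>
    ρ.eigen_mem hx ((viaFintypeEmbedding_sign h ι).trans hh) (commute_via ι h hfix) hw
  let a : Perm (Fin 6) := tri 1 2 3
  let b : Perm (Fin 6) := tri 0 2 1
  have ha : sign a = 1 := by decide
  have hb : sign b = 1 := by decide
  have es : (a * b * a⁻¹ * b⁻¹).viaFintypeEmbedding ι = ds 5 6 7 8 := by decide
  have eab : a.viaFintypeEmbedding ι * b.viaFintypeEmbedding ι * (a.viaFintypeEmbedding ι)⁻¹ *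
      (b.viaFintypeEmbedding ι)⁻¹ = ds 5 6 7 8 := by decide
  have h2le : 2 ≤ finrank F W := ρ.two_le ((viaFintypeEmbedding_sign a ι).trans ha)
    ((viaFintypeEmbedding_sign b ι).trans hb) (hW a ha) (hW b hb) hv (by rw [eab]; exact hne)
  by_contra hlt
  set σ := ρ.restrict ι W hW with hσ
  set s := a * b * a⁻¹ * b⁻¹ with hs
  have hss : sign s = 1 := by decide
  have hsne : σ.R s ≠ 1 := ρ.restrict_ne ι W hW hss hv (by rw [es]; exact hne)
  have hsq : σ.R s * σ.R s = 1 := by rw [← σ.map_mul _ _ hss hss, show s * s = 1 by decide, σ.map_one]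
  have hdet : LinearMap.det (σ.R s) = 1 := by
    rw [hs, σ.map_mul (a * b * a⁻¹) b⁻¹ (by decide) (by decide), σ.map_mul (a * b) a⁻¹ (by decide) (by decide),
      σ.map_mul a b ha hb, _root_.map_mul, _root_.map_mul, _root_.map_mul]
    have e1 := congrArg LinearMap.det (σ.mul_inv ha)
    have e2 := congrArg LinearMap.det (σ.mul_inv hb)
    rw [_root_.map_mul, _root_.map_one] at e1 e2
    linear_combination LinearMap.det (σ.R b) * LinearMap.det (σ.R b⁻¹) * e1 + e2
  have hneg : ∀ w ∈ W, ρ.R (ds 5 6 7 8) w = -w := by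
    intro w hw
    have h := congrArg Subtype.val (LinearMap.congr_fun
      (two_dim_involution (by omega : finrank F W = 2) h2 hsq hdet hsne) ⟨w, hw⟩)
    rw [← es]
    simpa [hσ, restrict, hss] using h
  set c : Perm (Fin 11) := tri 6 7 8 with hc
  have hcs : sign c = 1 := by decide
  have hcW : ∀ g : Perm (Fin 11), sign g = 1 → Commute g x → ∀ w ∈ W, ρ.R g w ∈ W := fun g hg e w hw =>
    ρ.eigen_mem hx hg e hw
  have hcx : Commute c x := by
    rw [show c = (tri (1 : Fin 6) 2 3).viaFintypeEmbedding ι by decide]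
    exact commute_via ι _ hfix
  have conj : ∀ g h : Perm (Fin 11), sign g = 1 → sign h = 1 → Commute g x → (∀ w ∈ W, ρ.R h w = -w) →
      ∀ w ∈ W, ρ.R (g * h * g⁻¹) w = -w := by
    intro g h hg hh e hn w hw
    rw [ρ.map_mul _ _ (by simp [hg, hh]) (by simp [hg]), ρ.map_mul _ _ hg hh, Module.End.mul_apply,
      Module.End.mul_apply, hn _ (hcW _ (by simp [hg]) e.inv_left w hw), map_neg, ← Module.End.mul_apply,
      ρ.mul_inv hg, Module.End.one_apply]
  have hs5 : sign (ds (5 : Fin 11) 6 7 8) = 1 := by decide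
  have n1 := conj c _ hcs hs5 hcx hneg
  have n2 := conj c _ hcs (by decide) hcx n1
  obtain ⟨w, hw, hw0⟩ : ∃ w ∈ W, w ≠ 0 := ⟨v, hv, fun e => hne (by rw [e, map_zero])⟩
  have := n2 w hw
  rw [show c * (c * ds 5 6 7 8 * c⁻¹) * c⁻¹ = ds 5 6 7 8 * (c * ds 5 6 7 8 * c⁻¹) by decide,
    ρ.map_mul _ _ hs5 (by decide), Module.End.mul_apply, n1 w hw, map_neg, hneg w hw, neg_neg] at this
  have h2w : (2 : F) • w = 0 := by rw [two_smul]; nth_rw 1 [this]; exact neg_add_cancel w
  exact hw0 ((smul_eq_zero.1 h2w).resolve_left h2)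

end Rep

open Rep

variable [FiniteDimensional F V] [IsAlgClosed F]

theorem two_ne_zero_of {q : ℕ} (hq : Odd q) (h : (q : F) = 0) : (2 : F) ≠ 0 := by
  intro e
  obtain ⟨k, rfl⟩ := hq
  push_cast at h
  rw [e, zero_mul, zero_add] at h
  exact one_ne_zero h

theorem nine_two (ρ : Rep 9 F V) (hne : ∃ g, sign g = 1 ∧ ρ.R g ≠ 1) (h2 : (2 : F) = 0) :
    LB F 9 (finrank F V) := by
  have h5 : ((5 : ℕ) : F) ≠ 0 := fun e => two_ne_zero_of (by decide) e h2
  rcases cycle_method ρ le_rfl hne ![0, 1, 2, 3, 5, 6, 7, 8] (by decide) 5 2 3 (by decide) h5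
    (tri 0 3 4 * tri 0 1 2) (swap 1 3 * swap 1 4 * swap 1 2 * swap 5 6) (swap 1 2 * swap 5 6) (ds 1 2 3 4)
    (by decide) (by decide) (by decide) (by decide) (by decide) (by decide) (by decide) (by decide) (cm (by decide))
    (cm (by decide)) (by decide) 2 two_pos (fun μ v _ hv hs => ρ.two_le (a := tri 6 7 8) (b := tri 5 7 6)
      (by decide) (by decide) (fun w hw => ρ.eigen_mem (by decide) (by decide) (cm (by decide)) hw)
      (fun w hw => ρ.eigen_mem (by decide) (by decide) (cm (by decide)) hw) hv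
      (by rwa [show tri (6 : Fin 9) 7 8 * tri 5 7 6 * (tri 6 7 8)⁻¹ * (tri 5 7 6)⁻¹ = ds 5 6 7 8 by decide])) with h | h
  · exact LB.of_le (by omega)
  · exact h

theorem ten_two (ρ : Rep 10 F V) (hne : ∃ g, sign g = 1 ∧ ρ.R g ≠ 1) (h2 : (2 : F) = 0) :
    LB F 10 (finrank F V) := by
  let σ := ρ.restrict Fin.castSuccEmb (⊤ : Submodule F V) (fun _ _ _ _ => Submodule.mem_top)
  have hd := ρ.D_ne_bot (by norm_num) hne (a := 0) (b := 1) (c := 2) (by decide) (by decide) (by decide)
  obtain ⟨v, hv⟩ : ∃ v, ρ.R (tri 0 1 2) v ≠ v := by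
    by_contra h
    push Not at h
    exact hd (LinearMap.ext h)
  have hσ := nine_two σ ⟨tri 0 1 2, by decide, ρ.restrict_ne _ _ _ (by decide) Submodule.mem_top
    (v := v) (by rw [via_tri _ (by decide) (by decide) (by decide)]; exact hv)⟩ h2
  rw [finrank_top] at hσ
  obtain ⟨h1, h1'⟩ := hσ
  have hne7 : finrank F V + 2 ≠ 9 := fun e => by
    have h9 := h1' e
    exact two_ne_zero_of (q := 9) (by decide) h9 h2
  exact ⟨by omega, fun _ => by
    rw [show ((10 : ℕ) : F) = 2 * 5 by norm_num, h2, zero_mul]⟩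

theorem eleven (ρ : Rep 11 F V) (hne : ∃ g, sign g = 1 ∧ ρ.R g ≠ 1) : LB F 11 (finrank F V) := by
  by_cases h7 : ((7 : ℕ) : F) = 0
  · have h2 := two_ne_zero_of (by decide) h7
    have h5 : ((5 : ℕ) : F) ≠ 0 := fun e => h2 (by push_cast at e h7; linear_combination h7 - e)
    rcases cycle_method ρ (by norm_num) hne ![0, 1, 2, 3, 5, 6, 7, 8] (by decide) 5 2 3 (by decide) h5
      (tri 0 3 4 * tri 0 1 2) (swap 1 3 * swap 1 4 * swap 1 2 * swap 5 6) (swap 1 2 * swap 9 10) (ds 1 2 3 4)
      (by decide) (by decide) (by decide) (by decide) (by decide) (by decide) (by decide) (by decide) (cm (by decide))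
      (cm (by decide)) (by decide) 3 (by decide) (fun μ v _ hv hs => ρ.three_le h2 (by decide) (by decide) hv hs) with h | h
    · exact LB.of_le (by omega)
    · exact h
  · rcases cycle_method ρ (by norm_num) hne ![0, 1, 2, 3, 7, 8, 9, 10] (by decide) 7 3 5 (by decide) h7
      (tri 0 5 6 * tri 0 3 4 * tri 0 1 2) (swap 1 5 * swap 1 4 * swap 1 6 * swap 1 2 * swap 1 3 * swap 7 8)
      (ds 1 2 5 6) (swap 1 2 * (swap 3 6 * swap 3 4 * swap 3 5))
      (by decide) (by decide) (by decide) (by decide) (by decide) (by decide) (by decide) (by decide) (cm (by decide))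
      (cm (by decide)) (by decide) 2 two_pos (fun μ v _ hv hs => ρ.two_le (a := tri 8 9 10) (b := tri 7 9 8)
        (by decide) (by decide) (fun w hw => ρ.eigen_mem (by decide) (by decide) (cm (by decide)) hw)
        (fun w hw => ρ.eigen_mem (by decide) (by decide) (cm (by decide)) hw) hv
        (by rwa [show tri (8 : Fin 11) 9 10 * tri 7 9 8 * (tri 8 9 10)⁻¹ * (tri 7 9 8)⁻¹ = ds 7 8 9 10 by decide])) with h | h
    · exact LB.of_le (by omega)
    · exact h

/-- The step from `r - 3` to `r`. -/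
theorem bound_step (ρ : Rep r F V) (hr : 12 ≤ r) (IH : Bounded.{u, v} (r - 3) F)
    (hne : ∃ g, sign g = 1 ∧ ρ.R g ≠ 1) : LB F r (finrank F V) := by
  let P : ℕ → Fin r := fun k => if h : k < r then ⟨k, h⟩ else ⟨0, by omega⟩
  have ne : ∀ {i j : ℕ}, i < 12 → j < 12 → i ≠ j → P i ≠ P j := fun {i j} hi hj hne e => hne (by
    have hi' : i < r := by omega
    have hj' : j < r := by omega
    simpa [P, hi', hj'] using congrArg Fin.val e)
  let ι : Fin (r - 3) ↪ Fin r := ⟨fun i => ⟨i.val + 3, by omega⟩, fun i j e => Fin.ext (by simpa using e)⟩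
  let Q : ℕ → Fin (r - 3) := fun k => if h : k < r - 3 then ⟨k, h⟩ else ⟨0, by omega⟩
  have hQ : ∀ k, k + 3 < 12 → ι (Q k) = P (k + 3) := fun k hk => by
    have h1 : k < r - 3 := by omega
    have h2 : k + 3 < r := by omega
    exact Fin.ext (show (Q k).val + 3 = (P (k + 3)).val by simp [Q, P, h1, h2])
  have neQ : ∀ {i j : ℕ}, i + 3 < 12 → j + 3 < 12 → i ≠ j → Q i ≠ Q j := fun {i j} hi hj hne e =>
    ne hi hj (by omega) (by rw [← hQ i hi, ← hQ j hj, e])
  set t := tri (P 0) (P 1) (P 2) with htdef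
  have n01 : P 0 ≠ P 1 := ne (by omega) (by omega) (by omega)
  have n02 : P 0 ≠ P 2 := ne (by omega) (by omega) (by omega)
  have n12 : P 1 ≠ P 2 := ne (by omega) (by omega) (by omega)
  have ht : sign t = 1 := sign_tri n01 n02 n12
  have htfix : ∀ y, t (ι y) = ι y := fun y => by
    have hv : ∀ k, k < 3 → ι y ≠ P k := fun k hk e => by
      have h1 : k < r := by omega
      have := congrArg Fin.val e
      rw [show (ι y).val = y.val + 3 from rfl, show (P k).val = k by simp [P, h1]] at this
      omega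
    exact tri_apply_of_ne (hv 0 (by omega)) (hv 1 (by omega)) (hv 2 (by omega))
  have hcomm : ∀ h : Perm (Fin (r - 3)), sign h = 1 → Commute (ρ.R (h.viaFintypeEmbedding ι)) (ρ.R t) :=
    fun h hh => ρ.commute ((viaFintypeEmbedding_sign h ι).trans hh) ht (commute_via ι h htfix)
  set y := tri (P 3) (P 4) (P 5) with hydef
  have hy : sign y = 1 := sign_tri (ne (by omega) (by omega) (by omega)) (ne (by omega) (by omega) (by omega))
    (ne (by omega) (by omega) (by omega))
  have hyQ : y = tri (ι (Q 0)) (ι (Q 1)) (ι (Q 2)) := by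
    rw [hQ 0 (by omega), hQ 1 (by omega), hQ 2 (by omega)]
  by_cases h0 : (ρ.R y - 1) * (ρ.R t - 1) = 0
  · refine natural_bound (by omega) (ρ.zero_of_pair (by omega) (a := P 0) (b := P 1) (c := P 2) (d := P 3)
      (e := P 4) (f := P 5) ?_ h0) hne
    intro i j hij
    fin_cases i <;> fin_cases j <;> simp only [Matrix.cons_val, Fin.isValue] at hij <;>
      first
      | rfl
      | exact absurd hij (ne (by omega) (by omega) (by omega))
  have hT : ρ.R t ^ 3 = 1 := by
    rw [← ρ.R_pow ht, show t ^ 3 = 1 from by rw [← (isThreeCycle_tri n01 n02 n12).orderOf]; exact pow_orderOf_eq_one t,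
      ρ.map_one]
  by_cases h3 : ((3 : ℕ) : F) = 0
  · -- characteristic three
    set T := ρ.R t - 1 with hTdef
    have hT3 : T * T * T = 0 := by
      have e3 : (3 : Module.End F V) = 0 := by
        have := congrArg (algebraMap F (Module.End F V)) h3
        rw [map_natCast, map_zero] at this
        exact_mod_cast this
      have e : T * T * T = ρ.R t ^ 3 - 1 - 3 * (ρ.R t * ρ.R t - ρ.R t) := by
        rw [hTdef]; noncomm_ring
      rw [e, hT, e3, zero_mul, sub_zero, sub_self]
    have hWinv : ∀ h : Perm (Fin (r - 3)), sign h = 1 → ∀ v ∈ LinearMap.range T,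
        ρ.R (h.viaFintypeEmbedding ι) v ∈ LinearMap.range T := by
      rintro h hh _ ⟨w, rfl⟩
      refine ⟨ρ.R (h.viaFintypeEmbedding ι) w, ?_⟩
      rw [← Module.End.mul_apply, ← Module.End.mul_apply, ((hcomm h hh).sub_right (Commute.one_right _)).eq]
    have hKinv : ∀ h : Perm (Fin (r - 3)), sign h = 1 → ∀ v ∈ LinearMap.ker T,
        ρ.R (h.viaFintypeEmbedding ι) v ∈ LinearMap.ker T := by
      intro h hh v hv
      rw [LinearMap.mem_ker] at hv ⊢
      rw [← Module.End.mul_apply, ← ((hcomm h hh).sub_right (Commute.one_right _)).eq, Module.End.mul_apply, hv,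
        map_zero]
    obtain ⟨v, hv, hvne⟩ : ∃ v ∈ LinearMap.range T, ρ.R y v ≠ v := by
      by_contra hc
      push Not at hc
      exact h0 (ρ.zero_iff.2 hc)
    have hW := ρ.lower IH ι _ hWinv (neQ (i := 0) (j := 1) (by omega) (by omega) (by omega))
      (neQ (i := 0) (j := 2) (by omega) (by omega) (by omega))
      (neQ (i := 1) (j := 2) (by omega) (by omega) (by omega)) hv (by rw [← hyQ]; exact hvne)
    have hsum := LinearMap.finrank_range_add_finrank_ker T
    by_cases hk : ∃ a b c : Fin (r - 3), a ≠ b ∧ a ≠ c ∧ b ≠ c ∧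
        ∃ w ∈ LinearMap.ker T, ρ.R (tri (ι a) (ι b) (ι c)) w ≠ w
    · obtain ⟨a, b, c, hab, hac, hbc, w, hw, hwne⟩ := hk
      have hK := ρ.lower IH ι _ hKinv hab hac hbc hw hwne
      exact LB.of_le (by omega)
    · push Not at hk
      exfalso
      -- everything fixes the kernel, so acts commutatively on the range
      have hcom : ∀ a b c a' b' c' : Fin (r - 3), a ≠ b → a ≠ c → b ≠ c → a' ≠ b' → a' ≠ c' → b' ≠ c' →
          ∀ w ∈ LinearMap.range T,
            ρ.R (tri (ι a) (ι b) (ι c)) (ρ.R (tri (ι a') (ι b') (ι c')) w) =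
            ρ.R (tri (ι a) (ι b) (ι c)) w + ρ.R (tri (ι a') (ι b') (ι c')) w - w := by
        intro a b c a' b' c' hab hac hbc hab' hac' hbc' w hw
        have hTw : T w ∈ LinearMap.ker T := by
          obtain ⟨z, rfl⟩ := hw
          rw [LinearMap.mem_ker, ← Module.End.mul_apply, ← Module.End.mul_apply, hT3]; rfl
        have hK : ρ.R (tri (ι a') (ι b') (ι c')) w - w ∈ LinearMap.ker T := by
          have hc := ((hcomm (tri a' b' c') (sign_tri hab' hac' hbc')).sub_right (Commute.one_right _)).eq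
          rw [via_tri ι hab' hac' hbc'] at hc
          rw [LinearMap.mem_ker, map_sub, ← Module.End.mul_apply, ← hc, Module.End.mul_apply,
            hk a' b' c' hab' hac' hbc' _ hTw, sub_self]
        have := hk a b c hab hac hbc _ hK
        rw [map_sub, sub_eq_iff_eq_add] at this
        rw [this]; abel
      have e := tri_eq_commutator (a := ι (Q 0)) (b := ι (Q 1)) (c := ι (Q 2)) (d := ι (Q 3)) (e := ι (Q 4))
      have nI : ∀ i j : ℕ, i + 3 < 12 → j + 3 < 12 → i ≠ j → ι (Q i) ≠ ι (Q j) := fun i j hi hj hne e' =>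
        neQ hi hj hne (ι.injective e')
      have e := e (nI 0 1 (by omega) (by omega) (by omega)) (nI 0 2 (by omega) (by omega) (by omega))
        (nI 0 3 (by omega) (by omega) (by omega)) (nI 0 4 (by omega) (by omega) (by omega))
        (nI 1 2 (by omega) (by omega) (by omega)) (nI 1 3 (by omega) (by omega) (by omega))
        (nI 1 4 (by omega) (by omega) (by omega)) (nI 2 3 (by omega) (by omega) (by omega))
        (nI 2 4 (by omega) (by omega) (by omega)) (nI 3 4 (by omega) (by omega) (by omega))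
      set g := tri (ι (Q 0)) (ι (Q 1)) (ι (Q 3)) with hgdef
      set g' := tri (ι (Q 0)) (ι (Q 2)) (ι (Q 4)) with hgdef'
      have hg : sign g = 1 := sign_tri (nI 0 1 (by omega) (by omega) (by omega))
        (nI 0 3 (by omega) (by omega) (by omega)) (nI 1 3 (by omega) (by omega) (by omega))
      have hg' : sign g' = 1 := sign_tri (nI 0 2 (by omega) (by omega) (by omega))
        (nI 0 4 (by omega) (by omega) (by omega)) (nI 2 4 (by omega) (by omega) (by omega))
      have hcm : ∀ w ∈ LinearMap.range T, ρ.R g (ρ.R g' w) = ρ.R g' (ρ.R g w) := fun w hw => by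
        rw [hcom (Q 0) (Q 1) (Q 3) (Q 0) (Q 2) (Q 4) (neQ (by omega) (by omega) (by omega))
          (neQ (by omega) (by omega) (by omega)) (neQ (by omega) (by omega) (by omega))
          (neQ (by omega) (by omega) (by omega)) (neQ (by omega) (by omega) (by omega))
          (neQ (by omega) (by omega) (by omega)) w hw,
          hcom (Q 0) (Q 2) (Q 4) (Q 0) (Q 1) (Q 3) (neQ (by omega) (by omega) (by omega))
          (neQ (by omega) (by omega) (by omega)) (neQ (by omega) (by omega) (by omega))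
          (neQ (by omega) (by omega) (by omega)) (neQ (by omega) (by omega) (by omega))
          (neQ (by omega) (by omega) (by omega)) w hw]
        abel
      refine hvne ?_
      have hyv : y = g * g' * g⁻¹ * g'⁻¹ := hyQ.trans e
      have hmem : ∀ a b c : Fin (r - 3), a ≠ b → a ≠ c → b ≠ c → ∀ w ∈ LinearMap.range T,
          ρ.R (tri (ι a) (ι b) (ι c))⁻¹ w ∈ LinearMap.range T := fun a b c hab hac hbc w hw => by
        have := hWinv (tri a c b) (sign_tri hac hab hbc.symm) w hw
        rwa [via_tri ι hac hab hbc.symm, ← tri_inv (fun e => hab (ι.injective e)) (fun e => hac (ι.injective e))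
          (fun e => hbc (ι.injective e))] at this
      rw [hyv, ρ.map_mul _ _ (by simp [hg, hg']) (by simp [hg']), ρ.map_mul _ _ (by simp [hg, hg']) (by simp [hg]),
        ρ.map_mul _ _ hg hg', Module.End.mul_apply, Module.End.mul_apply, Module.End.mul_apply,
        hcm _ (hmem (Q 0) (Q 1) (Q 3) (neQ (by omega) (by omega) (by omega)) (neQ (by omega) (by omega) (by omega))
          (neQ (by omega) (by omega) (by omega)) _ (hmem (Q 0) (Q 2) (Q 4) (neQ (by omega) (by omega) (by omega))
          (neQ (by omega) (by omega) (by omega)) (neQ (by omega) (by omega) (by omega)) v hv)),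
        ← Module.End.mul_apply (ρ.R g), ρ.mul_inv hg, Module.End.one_apply, ← Module.End.mul_apply,
        ρ.mul_inv hg', Module.End.one_apply]
  · -- semisimple three-cycles
    obtain ⟨μ, hμ, v, hv, hvne⟩ : ∃ μ : F, μ ≠ 1 ∧ ∃ v, ρ.R t v = μ • v ∧ ρ.R y v ≠ v := by
      by_contra hc
      push Not at hc
      exact h0 (fix_range h3 hT hc)
    have hW := ρ.lower IH ι ((ρ.R t).eigenspace μ)
      (fun h hh w hw => ρ.eigen_mem ht ((viaFintypeEmbedding_sign h ι).trans hh) (commute_via ι h htfix) hw)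
      (neQ (i := 0) (j := 1) (by omega) (by omega) (by omega))
      (neQ (i := 0) (j := 2) (by omega) (by omega) (by omega))
      (neQ (i := 1) (j := 2) (by omega) (by omega) (by omega)) (Module.End.mem_eigenspace_iff.2 hv)
      (by rw [← hyQ]; exact hvne)
    have hg : sign (ds (P 1) (P 2) (P 3) (P 4)) = 1 := sign_ds n12 (ne (by omega) (by omega) (by omega))
    set g := ds (P 1) (P 2) (P 3) (P 4) with hgdef
    have n03 : P 0 ≠ P 3 := ne (by omega) (by omega) (by omega)
    have n04 : P 0 ≠ P 4 := ne (by omega) (by omega) (by omega)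
    have n23 : P 2 ≠ P 3 := ne (by omega) (by omega) (by omega)
    have n24 : P 2 ≠ P 4 := ne (by omega) (by omega) (by omega)
    have n13 : P 1 ≠ P 3 := ne (by omega) (by omega) (by omega)
    have n14 : P 1 ≠ P 4 := ne (by omega) (by omega) (by omega)
    have hgt : t ^ 2 * g = g * t := by
      have e1 : g * t * g⁻¹ = t ^ 2 := by
        have e2 : t ^ 2 = t⁻¹ := eq_inv_of_mul_eq_one_left (by
          rw [← pow_succ, show 2 + 1 = 3 from rfl, ← (isThreeCycle_tri n01 n02 n12).orderOf]
          exact pow_orderOf_eq_one t)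
        rw [e2, htdef, conj_tri, tri_inv n01 n02 n12, hgdef, ds]
        simp only [Perm.mul_apply]
        rw [swap_apply_of_ne_of_ne n03 n04, swap_apply_of_ne_of_ne n01 n02,
          swap_apply_of_ne_of_ne n13 n14, swap_apply_left,
          swap_apply_of_ne_of_ne n23 n24, swap_apply_right]
      rw [← e1, inv_mul_cancel_right]
    have hb := eigen_bound (G := ρ.R g) (m := 2) (m' := 2) hT
      (by rw [← ρ.R_pow ht, ← ρ.map_mul _ _ (by simp [ht]) hg, hgt, ρ.map_mul _ _ hg ht])
      (ρ.injective hg) (by decide) (by decide) Nat.prime_three hμ (b := finrank F ((ρ.R t).eigenspace μ)) le_rfl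
      (by omega)
    exact LB.of_le (by omega)

theorem linear_bound (r : ℕ) : 9 ≤ r → Bounded.{u, v} r F := by
  induction r using Nat.strong_induction_on with
  | _ r IH =>
    intro hr W _ _ _ σ hne
    by_cases h12 : 12 ≤ r
    · exact bound_step σ h12 (IH (r - 3) (by omega) (by omega)) hne
    · by_cases h2 : (2 : F) = 0
      · interval_cases r
        exacts [nine_two σ hne h2, ten_two σ hne h2, eleven σ hne]
      · interval_cases r
        · exact (klein_method σ hr hne h2).elim (fun h => LB.of_le (by omega)) id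
        · exact (klein_method σ hr hne h2).elim (fun h => LB.of_le (by omega)) id
        · exact eleven σ hne

end Cfsg.Agent.Lib.AltDeg
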