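import Cfsg.Agent.Lib.AltDeg.NaturalBound

/-!
# Moving tuples and reaching the natural case
-/

set_option autoImplicit false

namespace Cfsg.Agent.Lib.AltDeg

open Equiv Equiv.Perm Cfsg.Agent.Lib.SchurAlt Module

variable {r : ℕ} {F V : Type*} [Field F] [AddCommGroup V] [Module F V]

/-- Even permutations move tuples. -/
theorem exists_move {k : ℕ} (f f' : Fin k → Fin r) (hf : Function.Injective f) (hf' : Function.Injective f')
    (hk : k + 2 ≤ r) : ∃ g : Perm (Fin r), sign g = 1 ∧ ∀ i, g (f i) = f' i := by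
  classical
  obtain ⟨σ, hσ⟩ := Equiv.Perm.exists_extending_pair f f' hf hf'
  rcases Int.units_eq_one_or (sign σ) with h | h
  · exact ⟨σ, h, hσ⟩
  · have hc : (Finset.univ.image f).card ≤ k := Finset.card_image_le.trans (by simp)
    obtain ⟨u, hu⟩ := exists_avoid (Finset.univ.image f) (by omega)
    obtain ⟨w, hw⟩ := exists_avoid (insert u (Finset.univ.image f)) (by rw [Finset.card_insert_of_notMem hu]; omega)
    simp only [Finset.mem_insert, Finset.mem_image, Finset.mem_univ, true_and, not_or, not_exists] at hu hw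
    refine ⟨σ * swap u w, ?_, fun i => ?_⟩
    · rw [Perm.sign_mul, h, sign_swap (Ne.symm hw.1)]; rfl
    · rw [Perm.mul_apply, swap_apply_of_ne_of_ne (hu i) (hw.2 i)]; exact hσ i

theorem via_tri {s : ℕ} (ι : Fin s ↪ Fin r) {a b c : Fin s} (hab : a ≠ b) (hac : a ≠ c) (hbc : b ≠ c) :
    (tri a b c).viaFintypeEmbedding ι = tri (ι a) (ι b) (ι c) := by
  have i1 : ι a ≠ ι b := fun e => hab (ι.injective e)
  have i2 : ι a ≠ ι c := fun e => hac (ι.injective e)
  have i3 : ι b ≠ ι c := fun e => hbc (ι.injective e)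
  ext x
  by_cases hx : x ∈ Set.range ι
  · obtain ⟨y, rfl⟩ := hx
    rw [Perm.viaFintypeEmbedding_apply_image]
    by_cases h1 : y = a
    · subst h1; rw [tri_apply_first hab hbc, tri_apply_first i1 i3]
    by_cases h2 : y = b
    · subst h2; rw [tri_apply_second, tri_apply_second]
    by_cases h3 : y = c
    · subst h3; rw [tri_apply_third hac hbc, tri_apply_third i2 i3]
    rw [tri_apply_of_ne h1 h2 h3, tri_apply_of_ne (fun e => h1 (ι.injective e)) (fun e => h2 (ι.injective e))
      (fun e => h3 (ι.injective e))]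
  · rw [Perm.viaFintypeEmbedding_apply_notMem_range _ _ hx,
      tri_apply_of_ne (fun e => hx ⟨a, e.symm⟩) (fun e => hx ⟨b, e.symm⟩) (fun e => hx ⟨c, e.symm⟩)]

namespace Rep

variable (ρ : Rep r F V)

theorem R_pow {g : Perm (Fin r)} (hg : sign g = 1) : ∀ k : ℕ, ρ.R (g ^ k) = ρ.R g ^ k
  | 0 => by rw [pow_zero, pow_zero, ρ.map_one]
  | k + 1 => by rw [pow_succ, pow_succ, ρ.map_mul _ _ (by simp [hg]) hg, R_pow hg k]

theorem zero_of_pair (hr : 8 ≤ r) {a b c d e f : Fin r} (hinj : Function.Injective ![a, b, c, d, e, f])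
    (h : (ρ.R (tri d e f) - 1) * (ρ.R (tri a b c) - 1) = 0) : ρ.Zero := by
  intro a' b' c' d' e' f' h1 h2 hdis
  have hn : ∀ x ∈ ({a', b', c'} : Finset (Fin r)), ∀ y ∈ ({d', e', f'} : Finset (Fin r)), x ≠ y :=
    Finset.disjoint_iff_ne.1 hdis
  simp only [Finset.mem_insert, Finset.mem_singleton, forall_eq_or_imp, forall_eq] at hn
  obtain ⟨⟨q1, q2, q3⟩, ⟨q4, q5, q6⟩, ⟨q7, q8, q9⟩⟩ := hn
  obtain ⟨-, -, -, a1, a2, a3⟩ := h1
  obtain ⟨-, -, -, b1, b2, b3⟩ := h2
  have hinj' : Function.Injective ![a', b', c', d', e', f'] := by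
    intro i j hij
    fin_cases i <;> fin_cases j <;> simp only [Matrix.cons_val, Fin.isValue] at hij <;> simp_all
  obtain ⟨g, hg, hgm⟩ := exists_move _ _ hinj hinj' (by omega)
  have n : ∀ i j : Fin 6, i ≠ j → ![a, b, c, d, e, f] i ≠ ![a, b, c, d, e, f] j := fun i j hij e => hij (hinj e)
  have := ρ.zero_conj hg (sign_tri (n 3 4 (by decide)) (n 3 5 (by decide)) (n 4 5 (by decide)))
    (sign_tri (n 0 1 (by decide)) (n 0 2 (by decide)) (n 1 2 (by decide))) h
  rw [conj_tri, conj_tri, hgm 0, hgm 1, hgm 2, hgm 3, hgm 4, hgm 5] at this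
  simpa using this

theorem tri_eq_ds {a b c u w : Fin r} (h1 : a ≠ u) (h2 : a ≠ w) (h3 : b ≠ u) (h4 : b ≠ w) :
    tri a b c = ds a c u w * ds a b u w := by
  have e : swap u w * swap a b = swap a b * swap u w := by
    have := swap_apply_apply (swap u w) a b
    rw [swap_apply_of_ne_of_ne h1 h2, swap_apply_of_ne_of_ne h3 h4] at this
    conv_rhs => rw [this]
    rw [mul_assoc, inv_mul_cancel, mul_one]
  simp only [ds, tri, mul_assoc]
  rw [← mul_assoc (swap u w) (swap a b), e, mul_assoc, swap_mul_self, mul_one]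

/-- Orthogonality of disjoint double transpositions implies it for three-cycles. -/
theorem zero_of_ds (hr : 9 ≤ r) (h0 : ∃ f : Fin 8 → Fin r, Function.Injective f ∧
    (ρ.R (ds (f 4) (f 5) (f 6) (f 7)) - 1) * (ρ.R (ds (f 0) (f 1) (f 2) (f 3)) - 1) = 0) : ρ.Zero := by
  obtain ⟨f, hf, h0⟩ := h0
  have all : ∀ f' : Fin 8 → Fin r, Function.Injective f' →
      (ρ.R (ds (f' 4) (f' 5) (f' 6) (f' 7)) - 1) * (ρ.R (ds (f' 0) (f' 1) (f' 2) (f' 3)) - 1) = 0 := by
    intro f' hf'
    have ne : ∀ i j : Fin 8, i ≠ j → f i ≠ f j := fun i j hij e => hij (hf e)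
    obtain ⟨σ, hσ⟩ := Equiv.Perm.exists_extending_pair f f' hf hf'
    have hs := sign_ds (ne 4 5 (by decide)) (ne 6 7 (by decide))
    have hs' := sign_ds (ne 0 1 (by decide)) (ne 2 3 (by decide))
    rcases Int.units_eq_one_or (sign σ) with h | h
    · have := ρ.zero_conj h hs hs' h0
      rwa [conj_ds, conj_ds, hσ 0, hσ 1, hσ 2, hσ 3, hσ 4, hσ 5, hσ 6, hσ 7] at this
    · have := ρ.zero_conj (g := σ * swap (f 0) (f 1))
        (by rw [Perm.sign_mul, h, sign_swap (ne 0 1 (by decide))]; rfl) hs hs' h0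
      simp only [conj_ds, Perm.mul_apply, swap_apply_left, swap_apply_right] at this
      rw [swap_apply_of_ne_of_ne (ne 2 0 (by decide)) (ne 2 1 (by decide)),
        swap_apply_of_ne_of_ne (ne 3 0 (by decide)) (ne 3 1 (by decide)),
        swap_apply_of_ne_of_ne (ne 4 0 (by decide)) (ne 4 1 (by decide)),
        swap_apply_of_ne_of_ne (ne 5 0 (by decide)) (ne 5 1 (by decide)),
        swap_apply_of_ne_of_ne (ne 6 0 (by decide)) (ne 6 1 (by decide)),
        swap_apply_of_ne_of_ne (ne 7 0 (by decide)) (ne 7 1 (by decide)),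
        hσ 0, hσ 1, hσ 2, hσ 3, hσ 4, hσ 5, hσ 6, hσ 7] at this
      rwa [ds, ds, swap_comm (f' 1) (f' 0)] at this
  -- points
  let P : ℕ → Fin r := fun k => if h : k < r then ⟨k, h⟩ else ⟨0, by omega⟩
  have ne : ∀ {i j : ℕ}, i < 9 → j < 9 → i ≠ j → P i ≠ P j := fun {i j} hi hj hne e => hne (by
    have hi' : i < r := by omega
    have hj' : j < r := by omega
    simpa [P, hi', hj'] using congrArg Fin.val e)
  -- a double transposition on `0, x, 3, 4` with `2, 5, 6, 7, 8` outside
  have key : ∀ x : ℕ, (x = 1 ∨ x = 2) → ∀ v ∈ ρ.D (ds (P 0) (P x) (P 3) (P 4)),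
      ρ.R (tri (P 5) (P 6) (P 7)) v = v := by
    intro x hx v hv
    obtain ⟨y, hy⟩ : ∃ y : ℕ, (y = 1 ∨ y = 2) ∧ y ≠ x := by
      rcases hx with rfl | rfl
      exacts [⟨2, Or.inr rfl, by omega⟩, ⟨1, Or.inl rfl, by omega⟩]
    have hx9 : x < 9 := by omega
    have hy9 : y < 9 := by omega
    have inj : ∀ a b c d : ℕ, a < 9 → b < 9 → c < 9 → d < 9 → a ≠ b → a ≠ c → a ≠ d → b ≠ c → b ≠ d → c ≠ d →
        (∀ k ∈ [0, x, 3, 4], k ≠ a ∧ k ≠ b ∧ k ≠ c ∧ k ≠ d) →
        (ρ.R (ds (P a) (P b) (P c) (P d)) v = v) := by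
      intro a b c d ha hb hc hd n1 n2 n3 n4 n5 n6 hk
      simp only [List.mem_cons, List.not_mem_nil, or_false, forall_eq_or_imp, forall_eq] at hk
      have := all ![P 0, P x, P 3, P 4, P a, P b, P c, P d] (by
        intro i j hij
        fin_cases i <;> fin_cases j <;> simp only [Matrix.cons_val, Fin.isValue] at hij <;>
          first
          | rfl
          | exact absurd hij (ne (by omega) (by omega) (by omega)))
      exact ρ.fix_D this hv
    have e : tri (P 5) (P 6) (P 7) = ds (P 5) (P 7) (P 8) (P y) * ds (P 5) (P 6) (P 8) (P y) :=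
      tri_eq_ds (ne (by omega) (by omega) (by omega)) (ne (by omega) hy9 (by omega))
        (ne (by omega) (by omega) (by omega)) (ne (by omega) hy9 (by omega))
    rw [e, ρ.map_mul _ _
      (sign_ds (ne (by omega) (by omega) (by omega)) (ne (by omega) hy9 (by omega)))
      (sign_ds (ne (by omega) (by omega) (by omega)) (ne (by omega) hy9 (by omega))), Module.End.mul_apply,
      inj 5 6 8 y (by omega) (by omega) (by omega) hy9 (by omega) (by omega) (by omega) (by omega) (by omega) (by omega)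
        (by simp; omega),
      inj 5 7 8 y (by omega) (by omega) (by omega) hy9 (by omega) (by omega) (by omega) (by omega) (by omega) (by omega)
        (by simp; omega)]
  refine ρ.zero_of_pair (by omega) (a := P 0) (b := P 1) (c := P 2) (d := P 5) (e := P 6) (f := P 7) ?_ ?_
  · intro i j hij
    fin_cases i <;> fin_cases j <;> simp only [Matrix.cons_val, Fin.isValue] at hij <;>
      first
      | rfl
      | exact absurd hij (ne (by omega) (by omega) (by omega))
  · refine ρ.zero_iff.2 fun v hv => ?_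
    rw [tri_eq_ds (u := P 3) (w := P 4) (ne (by omega) (by omega) (by omega)) (ne (by omega) (by omega) (by omega))
      (ne (by omega) (by omega) (by omega)) (ne (by omega) (by omega) (by omega))] at hv
    obtain ⟨v1, h1, v2, h2, rfl⟩ := Submodule.mem_sup.1 (ρ.D_mul
      (sign_ds (ne (by omega) (by omega) (by omega)) (ne (by omega) (by omega) (by omega)))
      (sign_ds (ne (by omega) (by omega) (by omega)) (ne (by omega) (by omega) (by omega))) hv)
    rw [map_add, key 2 (Or.inr rfl) v1 h1, key 1 (Or.inl rfl) v2 h2]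

end Rep

end Cfsg.Agent.Lib.AltDeg
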