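import Cfsg.Agent.Lib.AltDeg.Rep

/-!
# Representations in which disjoint three-cycles have orthogonal commutator spaces
-/

set_option autoImplicit false

namespace Cfsg.Agent.Lib.AltDeg

open Equiv Equiv.Perm Cfsg.Agent.Lib.SchurAlt Module

variable {r : ℕ} {F V : Type*} [Field F] [AddCommGroup V] [Module F V]

/-- Three distinct points in a set. -/
def In3 (s : Finset (Fin r)) (a b c : Fin r) : Prop := a ∈ s ∧ b ∈ s ∧ c ∈ s ∧ a ≠ b ∧ a ≠ c ∧ b ≠ c

namespace Rep

variable (ρ : Rep r F V)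

/-- The sum of the commutator spaces of three-cycles inside a set. -/
def S (s : Finset (Fin r)) : Submodule F V :=
  ⨆ (a : Fin r) (b : Fin r) (c : Fin r) (_ : In3 s a b c), ρ.D (tri a b c)

theorem D_le_S {s : Finset (Fin r)} {a b c : Fin r} (h : In3 s a b c) : ρ.D (tri a b c) ≤ ρ.S s :=
  le_iSup_of_le a (le_iSup_of_le b (le_iSup_of_le c (le_iSup_of_le h le_rfl)))

theorem S_le {s : Finset (Fin r)} {W : Submodule F V} (h : ∀ a b c, In3 s a b c → ρ.D (tri a b c) ≤ W) :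
    ρ.S s ≤ W :=
  iSup_le fun a => iSup_le fun b => iSup_le fun c => iSup_le fun hh => h a b c hh

theorem S_mono {s t : Finset (Fin r)} (h : s ⊆ t) : ρ.S s ≤ ρ.S t :=
  ρ.S_le fun _ _ _ hh => ρ.D_le_S ⟨h hh.1, h hh.2.1, h hh.2.2.1, hh.2.2.2⟩

theorem D_tri_rot {a b c : Fin r} (hab : a ≠ b) (hac : a ≠ c) (hbc : b ≠ c) :
    ρ.D (tri b a c) = ρ.D (tri a b c) := by
  have e : tri b a c = (tri a b c)⁻¹ := by rw [tri_inv hab hac hbc, tri_rotate hab.symm hbc hac]
  refine le_antisymm ?_ ?_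
  · rw [e]; exact ρ.D_inv (sign_tri hab hac hbc)
  · have e2 : tri a b c = (tri b a c)⁻¹ := by rw [e, inv_inv]
    rw [e2]; exact ρ.D_inv (sign_tri hab.symm hbc hac)

theorem map_S {g : Perm (Fin r)} (hg : sign g = 1) {s t : Finset (Fin r)} (h : ∀ x ∈ s, g x ∈ t) :
    (ρ.S s).map (ρ.R g) ≤ ρ.S t := by
  simp only [S, Submodule.map_iSup]
  refine iSup_le fun a => iSup_le fun b => iSup_le fun c => iSup_le fun hh => ?_
  obtain ⟨ha, hb, hc, hab, hac, hbc⟩ := hh
  refine (ρ.map_D hg (sign_tri hab hac hbc)).trans ?_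
  rw [conj_tri]
  exact ρ.D_le_S ⟨h a ha, h b hb, h c hc, fun e => hab (g.injective e), fun e => hac (g.injective e),
    fun e => hbc (g.injective e)⟩

theorem S_move {s : Finset (Fin r)} {a b c : Fin r} (hs : In3 s a b c) {v : V} (hv : v ∈ ρ.S s) :
    ρ.R (tri a b c) v ∈ ρ.S s := by
  have : ρ.R (tri a b c) v - v ∈ ρ.S s := ρ.D_le_S hs ⟨v, rfl⟩
  simpa using add_mem this hv

variable [FiniteDimensional F V]

theorem finrank_map {g : Perm (Fin r)} (hg : sign g = 1) (W : Submodule F V) :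
    finrank F (W.map (ρ.R g)) = finrank F W :=
  (Submodule.equivMapOfInjective _ (ρ.injective hg) W).finrank_eq.symm

theorem D_eq_map {g h : Perm (Fin r)} (hg : sign g = 1) (hh : sign h = 1) :
    (ρ.D h).map (ρ.R g) = ρ.D (g * h * g⁻¹) ∧ finrank F (ρ.D (g * h * g⁻¹)) = finrank F (ρ.D h) := by
  have h1 := Submodule.finrank_mono (ρ.map_D hg hh)
  have h2 := Submodule.finrank_mono (ρ.map_D (g := g⁻¹) (h := g * h * g⁻¹) (by simp [hg])
    (by rw [sign_conj]; exact hh))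
  rw [ρ.finrank_map hg] at h1
  rw [show g⁻¹ * (g * h * g⁻¹) * g⁻¹⁻¹ = h by group, ρ.finrank_map (by simp [hg])] at h2
  refine ⟨Submodule.eq_of_le_of_finrank_le (ρ.map_D hg hh) ?_, le_antisymm h2 h1⟩
  rw [ρ.finrank_map hg]
  exact h2

variable {ρ}

/-- The hypothesis of the natural case. -/
def Zero (ρ : Rep r F V) : Prop := ∀ a b c d e f : Fin r, In3 Finset.univ a b c → In3 Finset.univ d e f →
  Disjoint ({a, b, c} : Finset (Fin r)) {d, e, f} → (ρ.R (tri d e f) - 1) * (ρ.R (tri a b c) - 1) = 0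

omit [FiniteDimensional F V] in
theorem fix_S (hZ : Zero ρ) {s : Finset (Fin r)} {d e f : Fin r} (hdef : In3 Finset.univ d e f)
    (hd : d ∉ s) (he : e ∉ s) (hf : f ∉ s) {v : V} (hv : v ∈ ρ.S s) : ρ.R (tri d e f) v = v := by
  have : ρ.S s ≤ LinearMap.ker (ρ.R (tri d e f) - 1) := ρ.S_le fun a b c h =>
    range_of_zero (hZ a b c d e f ⟨Finset.mem_univ _, Finset.mem_univ _, Finset.mem_univ _, h.2.2.2⟩ hdef (by
      obtain ⟨ha, hb, hc, -⟩ := h
      simp only [Finset.disjoint_left, Finset.mem_insert, Finset.mem_singleton]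
      rintro x (rfl | rfl | rfl) (rfl | rfl | rfl) <;> contradiction))
  simpa [sub_eq_zero] using this hv

/-- Three-cycles through two fixed points generate. -/
theorem gen_two {P : Subgroup (alternatingGroup (Fin r))} {x y : Fin r} (hxy : x ≠ y)
    (h : ∀ i, ∀ (hi : i ≠ x) (hi' : i ≠ y),
      (⟨tri i x y, mem_alternatingGroup.2 (sign_tri hi hi' hxy)⟩ : alternatingGroup (Fin r)) ∈ P) :
    ∀ a b c, In3 Finset.univ a b c →
      ∀ hs : tri a b c ∈ alternatingGroup (Fin r), (⟨tri a b c, hs⟩ : alternatingGroup (Fin r)) ∈ P := by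
  -- conjugates stay inside
  have mv : ∀ {g t : Perm (Fin r)} (hg : g ∈ alternatingGroup (Fin r)) (ht : t ∈ alternatingGroup (Fin r)),
      (⟨g, hg⟩ : alternatingGroup (Fin r)) ∈ P → (⟨t, ht⟩ : alternatingGroup (Fin r)) ∈ P →
      ∀ hs : g * t * g⁻¹ ∈ alternatingGroup (Fin r), (⟨g * t * g⁻¹, hs⟩ : alternatingGroup (Fin r)) ∈ P := by
    intro g t hg ht h1 h2 hs
    have := mul_mem (mul_mem h1 h2) (inv_mem h1)
    exact this
  have mi : ∀ {g : Perm (Fin r)} (hg : g ∈ alternatingGroup (Fin r)),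
      (⟨g, hg⟩ : alternatingGroup (Fin r)) ∈ P → ∀ hs, (⟨g⁻¹, hs⟩ : alternatingGroup (Fin r)) ∈ P :=
    fun hg h1 hs => inv_mem h1
  have tm : ∀ {a b c : Fin r}, a ≠ b → a ≠ c → b ≠ c → tri a b c ∈ alternatingGroup (Fin r) := fun h1 h2 h3 =>
    mem_alternatingGroup.2 (sign_tri h1 h2 h3)
  -- the property on triples
  let Q : Fin r → Fin r → Fin r → Prop := fun a b c =>
    ∀ hs : tri a b c ∈ alternatingGroup (Fin r), (⟨tri a b c, hs⟩ : alternatingGroup (Fin r)) ∈ P
  have rot : ∀ {a b c}, a ≠ b → a ≠ c → b ≠ c → Q a b c → Q b c a := by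
    intro a b c h1 h2 h3 hq hs
    simp only [← tri_rotate h1 h2 h3]
    exact hq _
  have inv' : ∀ {a b c}, a ≠ b → a ≠ c → b ≠ c → Q a b c → Q a c b := by
    intro a b c h1 h2 h3 hq hs
    simp only [← tri_inv h1 h2 h3]
    exact mi (tm h1 h2 h3) (hq _) _
  have base : ∀ i, i ≠ x → i ≠ y → Q i x y ∧ Q x y i ∧ Q y i x ∧ Q i y x ∧ Q x i y ∧ Q y x i := by
    intro i h1 h2
    have q1 : Q i x y := fun hs => h i h1 h2
    have q2 := rot h1 h2 hxy q1
    have q3 := rot hxy h1.symm h2.symm q2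
    exact ⟨q1, q2, q3, inv' h1 h2 hxy q1, inv' hxy h1.symm h2.symm q2, inv' h2.symm hxy.symm h1 q3⟩
  have cj : ∀ {g1 g2 g3 a b c : Fin r}, g1 ≠ g2 → g1 ≠ g3 → g2 ≠ g3 → a ≠ b → a ≠ c → b ≠ c →
      Q g1 g2 g3 → Q a b c → Q (tri g1 g2 g3 a) (tri g1 g2 g3 b) (tri g1 g2 g3 c) := by
    intro g1 g2 g3 a b c k1 k2 k3 h1 h2 h3 hg hq hs
    simp only [← conj_tri (tri g1 g2 g3) a b c]
    exact mv (tm k1 k2 k3) (tm h1 h2 h3) (hg _) (hq _) _
  -- one of the two points and two others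
  have one : ∀ a b, a ≠ x → a ≠ y → b ≠ x → b ≠ y → a ≠ b → Q y b a ∧ Q x b a := by
    intro a b ha ha' hb hb' hab
    constructor
    · have e := cj hxy hb.symm hb'.symm hxy ha.symm ha'.symm (base b hb hb').2.1 (base a ha ha').2.1
      rwa [tri_apply_first hxy hb'.symm, tri_apply_second, tri_apply_of_ne ha ha' hab] at e
    · have e := cj hxy.symm hb'.symm hb.symm hxy.symm ha'.symm ha.symm (base b hb hb').2.2.2.2.2 (base a ha ha').2.2.2.2.2
      rwa [tri_apply_first hxy.symm hb.symm, tri_apply_second, tri_apply_of_ne ha' ha hab] at e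
  -- avoiding both
  have none' : ∀ a b c, a ≠ x → a ≠ y → b ≠ x → b ≠ y → c ≠ x → c ≠ y → a ≠ b → a ≠ c → b ≠ c → Q c b a := by
    intro a b c ha ha' hb hb' hc hc' hab hac hbc
    have e := cj hxy hc.symm hc'.symm hb'.symm ha'.symm hab.symm (base c hc hc').2.1 (one a b ha ha' hb hb' hab).1
    rwa [tri_apply_second, tri_apply_of_ne hb hb' hbc, tri_apply_of_ne ha ha' hac] at e
  rintro a b c ⟨-, -, -, hab, hac, hbc⟩
  show Q a b c
  by_cases a1 : a = x
  · subst a1
    by_cases b1 : b = y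
    · subst b1; exact (base c hac.symm hbc.symm).2.1
    by_cases c1 : c = y
    · subst c1; exact (base b hab.symm b1).2.2.2.2.1
    exact (one c b hac.symm c1 hab.symm b1 hbc.symm).2
  by_cases a2 : a = y
  · subst a2
    by_cases b1 : b = x
    · subst b1; exact (base c hbc.symm hac.symm).2.2.2.2.2
    by_cases c1 : c = x
    · subst c1; exact (base b b1 hab.symm).2.2.1
    exact (one c b c1 hac.symm b1 hab.symm hbc.symm).1
  by_cases b1 : b = x
  · subst b1
    by_cases c1 : c = y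
    · subst c1; exact (base a hab a2).1
    exact rot hac.symm hbc.symm hab (rot hbc hab.symm hac.symm ((one a c hab a2 hbc.symm c1 hac).2))
  by_cases b2 : b = y
  · subst b2
    by_cases c1 : c = x
    · subst c1; exact (base a a1 hab).2.2.2.1
    exact rot hac.symm hbc.symm hab (rot hbc hab.symm hac.symm ((one a c a1 hab c1 hbc.symm hac).1))
  by_cases c1 : c = x
  · subst c1
    exact rot hac.symm hbc.symm hab ((one b a b1 b2 a1 a2 hab.symm).2)
  by_cases c2 : c = y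
  · subst c2
    exact rot hac.symm hbc.symm hab ((one b a b1 b2 a1 a2 hab.symm).1)
  exact none' c b a c1 c2 b1 b2 a1 a2 hbc.symm hac.symm hab.symm

omit [FiniteDimensional F V] in
/-- One new point gives one new spanning space. -/
theorem S_insert {s : Finset (Fin r)} {p q j : Fin r} (hp : p ∈ s) (hq : q ∈ s) (hpq : p ≠ q) (hj : j ∉ s) :
    ρ.S (insert j s) ≤ ρ.S s ⊔ ρ.D (tri p q j) := by
  set W := ρ.S s ⊔ ρ.D (tri p q j)
  have ne : ∀ {x}, x ∈ s → x ≠ j := fun hx e => hj (e ▸ hx)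
  -- moving by a three-cycle of `s`
  have mv : ∀ {g1 g2 g3}, In3 s g1 g2 g3 → ∀ {a b}, a ∈ s → b ∈ s → a ≠ b → ρ.D (tri a b j) ≤ W →
      ρ.D (tri (tri g1 g2 g3 a) (tri g1 g2 g3 b) j) ≤ W := by
    intro g1 g2 g3 hg a b ha hb hab h
    obtain ⟨h1, h2, h3, k1, k2, k3⟩ := hg
    have hinv : In3 s g1 g3 g2 := ⟨h1, h3, h2, k2, k1, k3.symm⟩
    have e : tri (tri g1 g2 g3 a) (tri g1 g2 g3 b) j = tri g1 g2 g3 * tri a b j * (tri g1 g2 g3)⁻¹ := by
      rw [conj_tri, tri_apply_of_ne (a := g1) (b := g2) (c := g3) (x := j) (ne h1).symm (ne h2).symm (ne h3).symm]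
    rw [e]
    refine (ρ.D_mul (g := tri g1 g2 g3 * tri a b j) (h := (tri g1 g2 g3)⁻¹)
      (by simp [sign_tri k1 k2 k3, sign_tri hab (ne ha) (ne hb)]) (by simp [sign_tri k1 k2 k3])).trans ?_
    refine sup_le ((ρ.D_mul (sign_tri k1 k2 k3) (sign_tri hab (ne ha) (ne hb))).trans (sup_le ?_ h)) ?_
    · exact (ρ.D_le_S ⟨h1, h2, h3, k1, k2, k3⟩).trans le_sup_left
    · exact (ρ.D_inv (sign_tri k1 k2 k3)).trans ((ρ.D_le_S ⟨h1, h2, h3, k1, k2, k3⟩).trans le_sup_left)
  have flip : ∀ {a b}, a ∈ s → b ∈ s → a ≠ b → ρ.D (tri a b j) ≤ W → ρ.D (tri b a j) ≤ W := by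
    intro a b ha hb hab h
    rwa [ρ.D_tri_rot hab (ne ha) (ne hb)]
  -- replace one point
  have repl : ∀ {a b}, a ∈ s → b ∈ s → a ≠ b → ρ.D (tri a b j) ≤ W → ∀ c ∈ s, c ≠ b → ρ.D (tri b c j) ≤ W := by
    intro a b ha hb hab h c hc hcb
    by_cases hca : c = a
    · subst hca; exact flip ha hb hab h
    have := mv ⟨ha, hb, hc, hab, Ne.symm hca, hcb.symm⟩ ha hb hab h
    rwa [tri_apply_first hab hcb.symm, tri_apply_second] at this
  have all : ∀ a b, a ∈ s → b ∈ s → a ≠ b → ρ.D (tri a b j) ≤ W := by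
    intro a b ha hb hab
    have h0 : ρ.D (tri p q j) ≤ W := le_sup_right
    by_cases haq : a = q
    · subst haq; exact repl hp hq hpq h0 b hb hab.symm
    · exact repl hq ha (Ne.symm haq) (repl hp hq hpq h0 a ha haq) b hb hab.symm
  refine ρ.S_le fun a b c ⟨ha, hb, hc, hab, hac, hbc⟩ => ?_
  rw [Finset.mem_insert] at ha hb hc
  rcases hc with rfl | hc
  · exact all a b (ha.resolve_left hac) (hb.resolve_left hbc) hab
  rcases hb with rfl | hb
  · rw [← tri_rotate hac.symm hbc.symm hab]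
    exact all c a hc (ha.resolve_left hab) hac.symm
  rcases ha with rfl | ha
  · rw [tri_rotate hab hac hbc]
    exact all b c hb hc hbc
  exact (ρ.D_le_S ⟨ha, hb, hc, hab, hac, hbc⟩).trans le_sup_left

variable (hr : 9 ≤ r) (hZ : Zero ρ) (hne : ∃ g, sign g = 1 ∧ ρ.R g ≠ 1)

include hne hr in
omit [FiniteDimensional F V] in
theorem faithful {g : Perm (Fin r)} (hg : sign g = 1) (h1 : ρ.R g = 1) : g = 1 := by
  haveI := alternatingGroup.isSimpleGroup (α := Fin r) (by rw [Nat.card_fin]; omega)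
  let K : Subgroup (alternatingGroup (Fin r)) :=
    { carrier := {x | ρ.hom x = 1}
      one_mem' := _root_.map_one _
      mul_mem' := fun {x y} hx hy => by
        show ρ.hom (x * y) = 1
        rw [_root_.map_mul, show ρ.hom x = 1 from hx, show ρ.hom y = 1 from hy, one_mul]
      inv_mem' := fun {x} hx => by
        show ρ.hom x⁻¹ = 1
        have := (_root_.map_mul ρ.hom x⁻¹ x).symm
        rw [show ρ.hom x = 1 from hx, mul_one, inv_mul_cancel, _root_.map_one] at this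
        exact this }
  have hK : K.Normal := ⟨fun x hx y => by
    show ρ.hom (y * x * y⁻¹) = 1
    rw [_root_.map_mul, _root_.map_mul, show ρ.hom x = 1 from hx, mul_one, ← _root_.map_mul, mul_inv_cancel, _root_.map_one]⟩
  rcases hK.eq_bot_or_eq_top with h | h
  · have : (⟨g, mem_alternatingGroup.2 hg⟩ : alternatingGroup (Fin r)) ∈ K := h1
    rw [h, Subgroup.mem_bot] at this
    exact congrArg Subtype.val this
  · obtain ⟨x, hx, hx1⟩ := hne
    exact absurd (h.ge (Subgroup.mem_top ⟨x, mem_alternatingGroup.2 hx⟩)) hx1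

include hr hne hZ in
omit [FiniteDimensional F V] in
/-- A subspace fixed by all three-cycles cannot contain a commutator space. -/
theorem not_all_fixed {a b c : Fin r} (h : In3 Finset.univ a b c) (W : Submodule F V)
    (hW : ρ.D (tri a b c) ≤ W)
    (hfix : ∀ x y z, In3 Finset.univ x y z → ∀ v ∈ W, ρ.R (tri x y z) v = v) : False := by
  have hD : ∀ x y z, In3 Finset.univ x y z → ∀ v ∈ ρ.D (tri x y z), ∀ g, sign g = 1 → ρ.R g v = v := by
    have hG : ∀ g : alternatingGroup (Fin r), g ∈ ρ.fixer (W : Set V) := by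
      intro g
      have key : Subgroup.closure {σ : Perm (Fin r) | IsThreeCycle σ} ≤
          (ρ.fixer (W : Set V)).map (alternatingGroup (Fin r)).subtype := by
        rw [Subgroup.closure_le]
        intro t ht
        obtain ⟨k, hk⟩ : ∃ k, t k ≠ k := by
          by_contra hh
          push Not at hh
          exact (show IsThreeCycle t from ht).ne_one (Equiv.ext hh)
        obtain ⟨u, w, h1, h2, h3, rfl⟩ := exists_tri_of_moves ht hk
        exact ⟨⟨_, (show IsThreeCycle _ from ht).mem_alternatingGroup⟩, hfix u k w ⟨Finset.mem_univ _, Finset.mem_univ _,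
          Finset.mem_univ _, h1, h3, h2.symm⟩, rfl⟩
      obtain ⟨g', hg', e⟩ := key (closure_three_cycles_eq_alternating.ge g.2)
      exact (Subtype.ext e : g' = g) ▸ hg'
    intro x y z hxyz v hv g hg
    obtain ⟨-, -, -, hxy, hxz, hyz⟩ := hxyz
    obtain ⟨σ, hσ⟩ := alternatingGroup.isThreeCycle_isConj (α := Fin r) (by rw [Nat.card_fin]; omega)
      (σ := ⟨tri a b c, (isThreeCycle_tri h.2.2.2.1 h.2.2.2.2.1 h.2.2.2.2.2).mem_alternatingGroup⟩)
      (τ := ⟨tri x y z, (isThreeCycle_tri hxy hxz hyz).mem_alternatingGroup⟩)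
      (isThreeCycle_tri h.2.2.2.1 h.2.2.2.2.1 h.2.2.2.2.2) (isThreeCycle_tri hxy hxz hyz) |> isConj_iff.1
    have hσs : sign (σ : Perm (Fin r)) = 1 := mem_alternatingGroup.1 σ.2
    have e : tri x y z = (σ : Perm (Fin r)) * tri a b c * (σ : Perm (Fin r))⁻¹ := (congrArg Subtype.val hσ).symm
    have he := sign_tri h.2.2.2.1 h.2.2.2.2.1 h.2.2.2.2.2
    have hmem : ρ.R (σ : Perm (Fin r))⁻¹ v ∈ ρ.D (tri a b c) := by
      have := ρ.map_D (g := (σ : Perm (Fin r))⁻¹) (h := tri x y z) (by simp [hσs]) (sign_tri hxy hxz hyz)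
        ⟨v, hv, rfl⟩
      rwa [e, show (σ : Perm (Fin r))⁻¹ * ((σ : Perm (Fin r)) * tri a b c * (σ : Perm (Fin r))⁻¹) *
        ((σ : Perm (Fin r))⁻¹)⁻¹ = tri a b c by group] at this
    have h3 := hG σ _ (hW hmem)
    rw [← Module.End.mul_apply, ρ.mul_inv hσs, Module.End.one_apply] at h3
    have h4 : v ∈ W := h3 ▸ hW hmem
    exact hG ⟨g, mem_alternatingGroup.2 hg⟩ v h4
  -- then the images commute, and commutators act trivially
  have hcomm : ∀ x y z x' y' z', In3 Finset.univ x y z → In3 Finset.univ x' y' z' →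
      Commute (ρ.R (tri x y z)) (ρ.R (tri x' y' z')) := by
    intro x y z x' y' z' h1 h2
    have e1 : (ρ.R (tri x y z) - 1) * (ρ.R (tri x' y' z') - 1) = 0 :=
      ρ.zero_iff.2 fun v hv => hD x' y' z' h2 v hv _ (sign_tri h1.2.2.2.1 h1.2.2.2.2.1 h1.2.2.2.2.2)
    have e2 : (ρ.R (tri x' y' z') - 1) * (ρ.R (tri x y z) - 1) = 0 :=
      ρ.zero_iff.2 fun v hv => hD x y z h1 v hv _ (sign_tri h2.2.2.2.1 h2.2.2.2.2.1 h2.2.2.2.2.2)
    simp only [sub_mul, mul_sub, one_mul, mul_one] at e1 e2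
    show _ * _ = _ * _
    calc ρ.R (tri x y z) * ρ.R (tri x' y' z') = ρ.R (tri x y z) + ρ.R (tri x' y' z') - 1 := by
          rw [← sub_eq_zero, ← e1]; abel
      _ = _ := by rw [eq_comm, ← sub_eq_zero, ← e2]; abel
  obtain ⟨-, -, -, hab, hac, hbc⟩ := h
  obtain ⟨d, hd⟩ : ∃ d, d ∉ ({a, b, c} : Finset (Fin r)) := by
    by_contra hh
    push Not at hh
    have h1 := Finset.card_le_card (fun x _ => hh x : (Finset.univ : Finset (Fin r)) ⊆ {a, b, c})
    rw [Finset.card_univ, Fintype.card_fin] at h1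
    have h2 := Finset.card_le_three (a := a) (b := b) (c := c)
    omega
  obtain ⟨e, he⟩ : ∃ e, e ∉ ({a, b, c, d} : Finset (Fin r)) := by
    by_contra hh
    push Not at hh
    have h1 := Finset.card_le_card (fun x _ => hh x : (Finset.univ : Finset (Fin r)) ⊆ {a, b, c, d})
    rw [Finset.card_univ, Fintype.card_fin] at h1
    have h2 := Finset.card_le_four (a := a) (b := b) (c := c) (d := d)
    omega
  simp only [Finset.mem_insert, Finset.mem_singleton, not_or] at hd he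
  obtain ⟨hda, hdb, hdc⟩ := hd
  obtain ⟨hea, heb, hec, hed⟩ := he
  have hx : In3 Finset.univ a b d := ⟨Finset.mem_univ _, Finset.mem_univ _, Finset.mem_univ _, hab, Ne.symm hda, Ne.symm hdb⟩
  have hy : In3 Finset.univ a c e := ⟨Finset.mem_univ _, Finset.mem_univ _, Finset.mem_univ _, hac, Ne.symm hea, Ne.symm hec⟩
  have s1 := sign_tri hx.2.2.2.1 hx.2.2.2.2.1 hx.2.2.2.2.2
  have s2 := sign_tri hy.2.2.2.1 hy.2.2.2.2.1 hy.2.2.2.2.2
  refine (isThreeCycle_tri hab hac hbc).ne_one (faithful hr hne (sign_tri hab hac hbc) ?_)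
  rw [tri_eq_commutator hab hac (Ne.symm hda) (Ne.symm hea) hbc (Ne.symm hdb) (Ne.symm heb) (Ne.symm hdc)
      (Ne.symm hec) (Ne.symm hed),
    ρ.map_mul _ _ (by simp [s1, s2]) (by simp [s2]), ρ.map_mul _ _ (by simp [s1, s2]) (by simp [s1]),
    ρ.map_mul _ _ s1 s2, (hcomm a b d a c e hx hy).eq, mul_assoc (ρ.R (tri a c e)), ρ.mul_inv s1, mul_one,
    ρ.mul_inv s2]

end Rep

end Cfsg.Agent.Lib.AltDeg
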