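import Cfsg.Agent.Lib.AltDeg.Natural

/-!
# The dimension in the natural case
-/

set_option autoImplicit false

namespace Cfsg.Agent.Lib.AltDeg

open Equiv Equiv.Perm Cfsg.Agent.Lib.SchurAlt Module

variable {r : ℕ} {F V : Type*} [Field F] [AddCommGroup V] [Module F V]

theorem exists_avoid (s : Finset (Fin r)) (h : s.card < r) : ∃ x, x ∉ s := by
  by_contra hh
  push Not at hh
  have h1 := Finset.card_le_card (fun x _ => hh x : (Finset.univ : Finset (Fin r)) ⊆ s)
  rw [Finset.card_univ, Fintype.card_fin] at h1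
  omega

theorem In3.univ {s : Finset (Fin r)} {a b c : Fin r} (h : In3 s a b c) : In3 Finset.univ a b c :=
  ⟨Finset.mem_univ _, Finset.mem_univ _, Finset.mem_univ _, h.2.2.2⟩

theorem in3_univ {a b c : Fin r} (hab : a ≠ b) (hac : a ≠ c) (hbc : b ≠ c) : In3 Finset.univ a b c :=
  ⟨Finset.mem_univ _, Finset.mem_univ _, Finset.mem_univ _, hab, hac, hbc⟩

namespace Rep

variable {ρ : Rep r F V}

theorem S_three {a b c : Fin r} (hab : a ≠ b) (hac : a ≠ c) (hbc : b ≠ c) :
    ρ.S ({c, a, b} : Finset (Fin r)) ≤ ρ.D (tri a b c) := by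
  refine (S_insert (ρ := ρ) (s := {a, b}) (p := a) (q := b) (j := c) (by simp) (by simp) hab
    (by simp [hac.symm, hbc.symm])).trans ?_
  refine sup_le (ρ.S_le fun x y z h => ?_) le_rfl
  obtain ⟨hx, hy, hz, hxy, hxz, hyz⟩ := h
  simp only [Finset.mem_insert, Finset.mem_singleton] at hx hy hz
  rcases hx with rfl | rfl <;> rcases hy with rfl | rfl <;> rcases hz with rfl | rfl <;> contradiction

variable [FiniteDimensional F V]

/-- All three-cycles have commutator spaces of the same dimension. -/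
theorem d_const (hr : 5 ≤ r) {a b c a' b' c' : Fin r} (h : In3 Finset.univ a b c) (h' : In3 Finset.univ a' b' c') :
    finrank F (ρ.D (tri a b c)) = finrank F (ρ.D (tri a' b' c')) := by
  obtain ⟨σ, hσ⟩ := alternatingGroup.isThreeCycle_isConj (α := Fin r) (by rw [Nat.card_fin]; omega)
    (σ := ⟨tri a b c, (isThreeCycle_tri h.2.2.2.1 h.2.2.2.2.1 h.2.2.2.2.2).mem_alternatingGroup⟩)
    (τ := ⟨tri a' b' c', (isThreeCycle_tri h'.2.2.2.1 h'.2.2.2.2.1 h'.2.2.2.2.2).mem_alternatingGroup⟩)
    (isThreeCycle_tri h.2.2.2.1 h.2.2.2.2.1 h.2.2.2.2.2) (isThreeCycle_tri h'.2.2.2.1 h'.2.2.2.2.1 h'.2.2.2.2.2)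
    |> isConj_iff.1
  rw [show tri a' b' c' = (σ : Perm (Fin r)) * tri a b c * (σ : Perm (Fin r))⁻¹ from (congrArg Subtype.val hσ).symm]
  exact ((ρ.D_eq_map (mem_alternatingGroup.1 σ.2) (sign_tri h.2.2.2.1 h.2.2.2.2.1 h.2.2.2.2.2)).2).symm

variable (hr : 9 ≤ r) (hZ : Zero ρ) (hne : ∃ g, sign g = 1 ∧ ρ.R g ≠ 1)

include hr hZ hne in
theorem strict {s : Finset (Fin r)} {j : Fin r} (hs : 3 ≤ s.card) (hs' : s.card + 3 ≤ r) (hj : j ∉ s) :
    finrank F (ρ.S s) + 1 ≤ finrank F (ρ.S (insert j s)) := by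
  have hle : ρ.S s ≤ ρ.S (insert j s) := ρ.S_mono (Finset.subset_insert _ _)
  by_contra hcon
  have heq : ρ.S s = ρ.S (insert j s) := Submodule.eq_of_le_of_finrank_le hle (by omega)
  obtain ⟨x, hx⟩ := exists_avoid (insert j s) (by rw [Finset.card_insert_of_notMem hj]; omega)
  obtain ⟨y, hy⟩ := exists_avoid (insert x (insert j s)) (by
    rw [Finset.card_insert_of_notMem hx, Finset.card_insert_of_notMem hj]; omega)
  simp only [Finset.mem_insert, not_or] at hx hy
  have hfix : ∀ i, ∀ (hi : i ≠ x) (hi' : i ≠ y),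
      (⟨tri i x y, mem_alternatingGroup.2 (sign_tri hi hi' (Ne.symm hy.1))⟩ : alternatingGroup (Fin r)) ∈
        ρ.fixer (ρ.S s : Set V) := by
    intro i hi hi' v hv
    by_cases his : i ∈ s
    · set s' := insert j (s.erase i)
      have e : ρ.S s' = ρ.S s := by
        refine Submodule.eq_of_le_of_finrank_le ((ρ.S_mono (Finset.insert_subset_insert _
          (Finset.erase_subset _ _))).trans heq.ge) ?_
        have hij : i ≠ j := fun e => hj (e ▸ his)
        have hg := sign_tri hij hi (Ne.symm hx.1)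
        rw [← ρ.finrank_map hg (ρ.S s)]
        refine Submodule.finrank_mono (ρ.map_S hg fun z hz => ?_)
        by_cases hzi : z = i
        · rw [hzi, tri_apply_first hij (Ne.symm hx.1)]; exact Finset.mem_insert_self _ _
        · rw [tri_apply_of_ne hzi (fun e => hj (by rw [← e]; exact hz)) (fun e => hx.2 (by rw [← e]; exact hz))]
          exact Finset.mem_insert_of_mem (Finset.mem_erase.2 ⟨hzi, hz⟩)
      have hn : ∀ z, z = i ∨ z = x ∨ z = y → z ∉ s' := by
        intro z hz hmem
        simp only [s', Finset.mem_insert, Finset.mem_erase] at hmem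
        rcases hz with rfl | rfl | rfl
        · exact hmem.elim (fun e => hj (e ▸ his)) (fun h => h.1 rfl)
        · exact hmem.elim hx.1 (fun h => hx.2 h.2)
        · exact hmem.elim hy.2.1 (fun h => hy.2.2 h.2)
      exact fix_S hZ (in3_univ hi hi' (Ne.symm hy.1)) (hn i (Or.inl rfl)) (hn x (Or.inr (Or.inl rfl)))
        (hn y (Or.inr (Or.inr rfl))) (e ▸ hv : v ∈ ρ.S s')
    · exact fix_S hZ (in3_univ hi hi' (Ne.symm hy.1)) his hx.2 hy.2.2 hv
  obtain ⟨a, b, c, ha, hb, hc, hab, hac, hbc⟩ := Finset.two_lt_card_iff.1 (show 2 < s.card by omega)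
  refine not_all_fixed hr hZ hne (in3_univ hab hac hbc) (ρ.S s) (ρ.D_le_S ⟨ha, hb, hc, hab, hac, hbc⟩) ?_
  intro u v w huvw
  exact gen_two (Ne.symm hy.1) hfix u v w huvw (mem_alternatingGroup.2 (sign_tri huvw.2.2.2.1 huvw.2.2.2.2.1 huvw.2.2.2.2.2))

include hr hZ hne in
theorem chain {s t : Finset (Fin r)} (hst : s ⊆ t) (hs : 3 ≤ s.card) (ht : t.card + 3 ≤ r) :
    finrank F (ρ.S s) + (t.card - s.card) ≤ finrank F (ρ.S t) := by
  obtain ⟨k, hk⟩ : ∃ k, t.card - s.card = k := ⟨_, rfl⟩
  induction k generalizing s with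
  | zero =>
    have := Finset.eq_of_subset_of_card_le hst (by omega)
    subst this
    simp
  | succ k ih =>
    obtain ⟨j, hjt, hjs⟩ := Finset.exists_mem_notMem_of_card_lt_card (show s.card < t.card by omega)
    have h1 := strict hr hZ hne hs (by omega) hjs
    have hc := Finset.card_insert_of_notMem hjs
    have h2 := ih (s := insert j s) (Finset.insert_subset hjt hst) (by omega) (by omega)
    omega

include hr hZ hne in
/-- Lower bound for a set. -/
theorem S_lower {s : Finset (Fin r)} (hs : 3 ≤ s.card) (hs' : s.card + 3 ≤ r) {a b c : Fin r}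
    (h : In3 Finset.univ a b c) : finrank F (ρ.D (tri a b c)) + (s.card - 3) ≤ finrank F (ρ.S s) := by
  obtain ⟨x, y, z, hx, hy, hz, hxy, hxz, hyz⟩ := Finset.two_lt_card_iff.1 (show 2 < s.card by omega)
  have hc : ({x, y, z} : Finset (Fin r)).card = 3 := Finset.card_eq_three.2 ⟨x, y, z, hxy, hxz, hyz, rfl⟩
  have h1 := chain hr hZ hne (s := {x, y, z}) (t := s) (by simp [Finset.subset_iff, hx, hy, hz]) (le_of_eq hc.symm) hs'
  have h2 := Submodule.finrank_mono (ρ.D_le_S (s := {x, y, z}) (a := x) (b := y) (c := z)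
    ⟨by simp, by simp, by simp, hxy, hxz, hyz⟩)
  rw [d_const (by omega) h (in3_univ hxy hxz hyz)]
  omega

include hr hZ hne in
/-- Upper bound for a set away from a three-cycle. -/
theorem S_upper {s : Finset (Fin r)} (hs : 3 ≤ s.card) {a b c : Fin r} (h : In3 Finset.univ a b c)
    (ha : a ∉ s) (hb : b ∉ s) (hc : c ∉ s) :
    finrank F (ρ.S s) + (r - 3 - s.card) + finrank F (ρ.D (tri a b c)) ≤ finrank F V := by
  set t := ({a, b, c} : Finset (Fin r))ᶜ
  have htc : t.card = r - 3 := by
    rw [Finset.card_compl, Fintype.card_fin, Finset.card_eq_three.2 ⟨a, b, c, h.2.2.2.1, h.2.2.2.2.1, h.2.2.2.2.2, rfl⟩]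
  have hst : s ⊆ t := fun x hx => by
    simp only [t, Finset.mem_compl, Finset.mem_insert, Finset.mem_singleton]
    rintro (rfl | rfl | rfl) <;> contradiction
  have h1 := chain hr hZ hne hst hs (by omega)
  have hker : ρ.S t ≤ LinearMap.ker (ρ.R (tri a b c) - 1) := fun v hv => by
    have := fix_S hZ h (by simp [t]) (by simp [t]) (by simp [t]) hv
    simp [this]
  have h2 := Submodule.finrank_mono hker
  have h3 := LinearMap.finrank_range_add_finrank_ker (ρ.R (tri a b c) - 1)
  have h3' : finrank F (ρ.D (tri a b c)) + finrank F (LinearMap.ker (ρ.R (tri a b c) - 1)) = finrank F V := h3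
  rw [htc] at h1
  omega

/-- If the commutator spaces are at most a line modulo a common fixed part, five points span little. -/
theorem five_le {M : Submodule F V} {a b c p q : Fin r} (hab : a ≠ b) (hac : a ≠ c) (hap : a ≠ p) (haq : a ≠ q)
    (hbc : b ≠ c) (hbp : b ≠ p) (hbq : b ≠ q) (hcp : c ≠ p) (hcq : c ≠ q) (hpq : p ≠ q)
    (hM : ∀ v ∈ M, ρ.R (tri c p q) v = v) (hM1 : M ≤ ρ.D (tri a b c)) (hM2 : M ≤ ρ.D (tri c p q))
    (hd : finrank F (ρ.D (tri a b c)) ≤ finrank F M + 1) (hd' : finrank F (ρ.D (tri c p q)) ≤ finrank F M + 1) :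
    finrank F (ρ.S ({q, p, c, a, b} : Finset (Fin r))) ≤ finrank F M + 2 := by
  classical
  set g := tri c p q
  have hg := sign_tri hcp hcq hpq
  have hgab : g a = a ∧ g b = b := ⟨tri_apply_of_ne hac hap haq, tri_apply_of_ne hbc hbp hbq⟩
  have e1 : g * tri a b c * g⁻¹ = tri a b p := by rw [conj_tri, hgab.1, hgab.2, tri_apply_first hcp hpq]
  have e2 : g * tri a b p * g⁻¹ = tri a b q := by rw [conj_tri, hgab.1, hgab.2, tri_apply_second]
  have m1 : (ρ.D (tri a b c)).map (ρ.R g) = ρ.D (tri a b p) := e1 ▸ (ρ.D_eq_map hg (sign_tri hab hac hbc)).1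
  have m2 : (ρ.D (tri a b p)).map (ρ.R g) = ρ.D (tri a b q) := e2 ▸ (ρ.D_eq_map hg (sign_tri hab hap hbp)).1
  have hS : ρ.S ({q, p, c, a, b} : Finset (Fin r)) ≤
      ρ.D (tri a b c) ⊔ ρ.D (tri a b p) ⊔ ρ.D (tri a b q) := by
    refine (S_insert (ρ := ρ) (p := a) (q := b) (by simp) (by simp) hab (by simp [haq.symm, hbq.symm, hcq.symm, hpq.symm])).trans ?_
    refine sup_le ((S_insert (ρ := ρ) (p := a) (q := b) (by simp) (by simp) hab (by simp [hap.symm, hbp.symm, hcp.symm])).trans ?_) le_sup_right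
    exact sup_le ((S_three hab hac hbc).trans (le_sup_of_le_left le_sup_left)) (le_sup_of_le_left le_sup_right)
  have hMD : ∀ W : Submodule F V, M ≤ W → finrank F W ≤ finrank F M + 1 →
      ∀ u ∈ W, u ∉ M → W ≤ M ⊔ Submodule.span F {u} := by
    intro W hMW hW u hu huM
    refine (Submodule.eq_of_le_of_finrank_le (sup_le hMW (by simpa [Submodule.span_singleton_le_iff_mem] using hu)) ?_).ge
    have : M < M ⊔ Submodule.span F {u} := by
      refine lt_of_le_of_ne le_sup_left fun e => huM (e ▸ Submodule.mem_sup_right (Submodule.mem_span_singleton_self u))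
    have := Submodule.finrank_lt_finrank_of_lt this
    omega
  by_cases hA : ρ.D (tri a b c) ≤ M
  · have hB : ρ.D (tri a b p) ≤ M := by
      rw [← m1]
      rintro _ ⟨v, hv, rfl⟩
      rw [hM v (hA hv)]; exact hA hv
    have hC : ρ.D (tri a b q) ≤ M := by
      rw [← m2]
      rintro _ ⟨v, hv, rfl⟩
      rw [hM v (hB hv)]; exact hB hv
    exact (Submodule.finrank_mono (hS.trans (sup_le (sup_le hA hB) hC))).trans (by omega)
  obtain ⟨u, hu, huM⟩ := SetLike.not_le_iff_exists.1 hA
  have hspan := hMD _ hM1 hd u hu huM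
  -- the three lines
  have gen : ∀ {W W' : Submodule F V} {x : V}, W ≤ M ⊔ Submodule.span F {x} → W' = W.map (ρ.R g) →
      W' ≤ M ⊔ Submodule.span F {ρ.R g x} := by
    intro W W' x h e
    rw [e]
    refine (Submodule.map_mono h).trans ?_
    rw [Submodule.map_sup, Submodule.map_span, Set.image_singleton]
    refine sup_le (le_sup_of_le_left ?_) le_sup_right
    rintro _ ⟨v, hv, rfl⟩
    rw [hM v hv]; exact hv
  set u' := ρ.R g u
  set u'' := ρ.R g u'
  have hB := gen hspan m1.symm
  have hC := gen hB m2.symm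
  have hw1 : u' - u ∈ ρ.D g := ⟨u, rfl⟩
  have hw2 : u'' - u' ∈ ρ.D g := ⟨u', rfl⟩
  obtain ⟨x, y, hxy⟩ : ∃ x y : V, ∀ z ∈ ({u, u', u''} : Set V), z ∈ M ⊔ Submodule.span F {x, y} := by
    have mx : ∀ {x y z : V}, z ∈ ({x, y} : Set V) → z ∈ M ⊔ Submodule.span F {x, y} :=
      fun h => Submodule.mem_sup_right (Submodule.subset_span h)
    by_cases hw : u' - u ∈ M
    · refine ⟨u, u'', ?_⟩
      rintro z (rfl | rfl | rfl)
      · exact mx (by simp)
      · rw [show u' = u + (u' - u) by abel]
        exact add_mem (mx (by simp)) (Submodule.mem_sup_left hw)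
      · exact mx (by simp)
    · refine ⟨u, u', ?_⟩
      rintro z (rfl | rfl | rfl)
      · exact mx (by simp)
      · exact mx (by simp)
      · rw [show u'' = u' + (u'' - u') by abel]
        refine add_mem (mx (by simp)) ?_
        refine SetLike.le_def.1 (?_ : M ⊔ Submodule.span F {u' - u} ≤ M ⊔ Submodule.span F {u, u'}) (hMD _ hM2 hd' _ hw1 hw hw2)
        refine sup_le le_sup_left ?_
        rw [Submodule.span_singleton_le_iff_mem]
        exact sub_mem (mx (by simp)) (mx (by simp))
  have hle : ρ.S ({q, p, c, a, b} : Finset (Fin r)) ≤ M ⊔ Submodule.span F {x, y} := by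
    refine hS.trans (sup_le (sup_le (hspan.trans ?_) (hB.trans ?_)) (hC.trans ?_)) <;>
      refine sup_le le_sup_left ?_ <;> rw [Submodule.span_singleton_le_iff_mem] <;> exact hxy _ (by simp [u', u''])
  refine (Submodule.finrank_mono hle).trans ?_
  refine (Submodule.finrank_add_le_finrank_add_finrank _ _).trans ?_
  have : finrank F (Submodule.span F ({x, y} : Set V)) ≤ 2 := by
    refine le_trans (finrank_span_le_card _) ?_
    rw [Set.toFinset_insert, Set.toFinset_singleton]
    exact Finset.card_le_two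
  omega

include hr hZ hne in
theorem natural_bound : r ≤ finrank F V + 2 ∧ (finrank F V + 2 = r → (r : F) = 0) := by
  classical
  let P : ℕ → Fin r := fun k => if h : k < r then ⟨k, h⟩ else ⟨0, by omega⟩
  have hP : ∀ {i j : ℕ}, i < r → j < r → i ≠ j → P i ≠ P j := fun hi hj hne e => hne (by
    simpa [P, hi, hj] using congrArg Fin.val e)
  have ne : ∀ {i j : ℕ}, i < 9 → j < 9 → i ≠ j → P i ≠ P j := fun hi hj h => hP (by omega) (by omega) h
  set d := finrank F (ρ.D (tri (P 0) (P 1) (P 2))) with hd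
  have h012 : In3 Finset.univ (P 0) (P 1) (P 2) :=
    in3_univ (ne (by omega) (by omega) (by omega)) (ne (by omega) (by omega) (by omega)) (ne (by omega) (by omega) (by omega))
  have hdc : ∀ {a b c}, In3 Finset.univ a b c → finrank F (ρ.D (tri a b c)) = d := fun h => d_const (by omega) h h012
  have hd1 : 1 ≤ d := by
    by_contra h
    have h0 : ρ.D (tri (P 0) (P 1) (P 2)) = ⊥ := Submodule.finrank_eq_zero.1 (by omega)
    refine (isThreeCycle_tri h012.2.2.2.1 h012.2.2.2.2.1 h012.2.2.2.2.2).ne_one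
      (faithful hr hne (sign_tri h012.2.2.2.1 h012.2.2.2.2.1 h012.2.2.2.2.2) ?_)
    rw [← sub_eq_zero]
    exact LinearMap.range_eq_bot.1 h0
  -- small sets
  have hsm : ∀ s : Finset (Fin r), 3 ≤ s.card → s.card ≤ 5 →
      d + (s.card - 3) ≤ finrank F (ρ.S s) ∧ finrank F (ρ.S s) + (r - 3 - s.card) + d ≤ finrank F V := by
    intro s h3 h5
    obtain ⟨x, hx⟩ := exists_avoid s (by omega)
    obtain ⟨y, hy⟩ := exists_avoid (insert x s) (by rw [Finset.card_insert_of_notMem hx]; omega)
    obtain ⟨z, hz⟩ := exists_avoid (insert y (insert x s)) (by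
      rw [Finset.card_insert_of_notMem hy, Finset.card_insert_of_notMem hx]; omega)
    simp only [Finset.mem_insert, not_or] at hy hz
    have hxyz := in3_univ (Ne.symm hy.1) (Ne.symm hz.2.1) (Ne.symm hz.1)
    have l1 := S_lower hr hZ hne h3 (by omega) hxyz
    have l2 := S_upper hr hZ hne h3 hxyz hx hy.2 hz.2.2
    rw [hdc hxyz] at l1 l2
    exact ⟨l1, l2⟩
  have c5 : ∀ {a b c p q : Fin r}, a ≠ b → a ≠ c → a ≠ p → a ≠ q → b ≠ c → b ≠ p → b ≠ q → c ≠ p → c ≠ q → p ≠ q →
      ({q, p, c, a, b} : Finset (Fin r)).card = 5 := by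
    intro a b c p q h1 h2 h3 h4 h5 h6 h7 h8 h9 h10
    simp [h1, h2.symm, h3.symm, h4.symm, h5.symm, h6.symm, h7.symm, h8.symm, h9.symm, h10.symm]
  have hd2 : 2 ≤ d := by
    by_contra h
    have q5 := c5 (a := P 0) (b := P 1) (c := P 2) (p := P 3) (q := P 4) (ne (by omega) (by omega) (by omega))
      (ne (by omega) (by omega) (by omega)) (ne (by omega) (by omega) (by omega)) (ne (by omega) (by omega) (by omega))
      (ne (by omega) (by omega) (by omega)) (ne (by omega) (by omega) (by omega)) (ne (by omega) (by omega) (by omega))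
      (ne (by omega) (by omega) (by omega)) (ne (by omega) (by omega) (by omega)) (ne (by omega) (by omega) (by omega))
    have l := (hsm _ (le_of_le_of_eq (by omega : 3 ≤ 5) q5.symm) q5.le).1
    have h234 : In3 Finset.univ (P 2) (P 3) (P 4) := in3_univ (ne (by omega) (by omega) (by omega))
      (ne (by omega) (by omega) (by omega)) (ne (by omega) (by omega) (by omega))
    have u := five_le (ρ := ρ) (M := ⊥) (a := P 0) (b := P 1) (c := P 2) (p := P 3) (q := P 4)
      (ne (by omega) (by omega) (by omega))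
      (ne (by omega) (by omega) (by omega)) (ne (by omega) (by omega) (by omega)) (ne (by omega) (by omega) (by omega))
      (ne (by omega) (by omega) (by omega)) (ne (by omega) (by omega) (by omega)) (ne (by omega) (by omega) (by omega))
      (ne (by omega) (by omega) (by omega)) (ne (by omega) (by omega) (by omega)) (ne (by omega) (by omega) (by omega))
      (fun v hv => by rw [(Submodule.mem_bot F).1 hv, map_zero]) bot_le bot_le
      (by rw [hdc h012]; simp; omega) (by rw [hdc h234]; simp; omega)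
    rw [finrank_bot] at u
    omega
  have c3 : ({P 0, P 1, P 2} : Finset (Fin r)).card = 3 :=
    Finset.card_eq_three.2 ⟨_, _, _, h012.2.2.2.1, h012.2.2.2.2.1, h012.2.2.2.2.2, rfl⟩
  obtain ⟨b1, b2⟩ := hsm _ c3.ge (c3.le.trans (by omega))
  refine ⟨by omega, fun hn => ?_⟩
  have hd' : d = 2 := by omega
  simp only [hd'] at hsm hdc
  -- exact dimensions
  have ex : ∀ s : Finset (Fin r), 3 ≤ s.card → s.card ≤ 5 → finrank F (ρ.S s) + 1 = s.card := by
    intro s h3 h5
    obtain ⟨l1, l2⟩ := hsm s h3 h5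
    omega
  have inf1 : ∀ {a b k l : Fin r}, a ≠ b → a ≠ k → a ≠ l → b ≠ k → b ≠ l → k ≠ l →
      finrank F ↥(ρ.D (tri a b k) ⊓ ρ.D (tri a b l)) = 1 := by
    intro a b k l h1 h2 h3 h4 h5 h6
    have hc : ({l, k, a, b} : Finset (Fin r)).card = 4 := by
      simp [h1, h2.symm, h3.symm, h4.symm, h5.symm, h6.symm]
    have e := ex ({l, k, a, b} : Finset (Fin r)) (by omega) (by omega)
    have hle : ρ.S ({l, k, a, b} : Finset (Fin r)) = ρ.D (tri a b k) ⊔ ρ.D (tri a b l) := by
      refine le_antisymm ((S_insert (ρ := ρ) (p := a) (q := b) (by simp) (by simp) h1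
        (by simp [h3.symm, h5.symm, h6.symm])).trans (sup_le_sup_right (S_three h1 h2 h4) _)) ?_
      exact sup_le (ρ.D_le_S ⟨by simp, by simp, by simp, h1, h2, h4⟩) (ρ.D_le_S ⟨by simp, by simp, by simp, h1, h3, h5⟩)
    rw [hle, hc] at e
    have := Submodule.finrank_sup_add_finrank_inf_eq (ρ.D (tri a b k)) (ρ.D (tri a b l))
    rw [hdc (in3_univ h1 h2 h4), hdc (in3_univ h1 h3 h5)] at this
    omega
  have n01 : P 0 ≠ P 1 := ne (by omega) (by omega) (by omega)
  obtain ⟨e, he, he0⟩ := Submodule.exists_mem_ne_zero_of_ne_bot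
    (p := ρ.D (tri (P 0) (P 1) (P 2)) ⊓ ρ.D (tri (P 0) (P 1) (P 3))) (fun h => by
      have := inf1 (k := P 2) (l := P 3) n01 (ne (by omega) (by omega) (by omega)) (ne (by omega) (by omega) (by omega))
        (ne (by omega) (by omega) (by omega)) (ne (by omega) (by omega) (by omega)) (ne (by omega) (by omega) (by omega))
      rw [h, finrank_bot] at this
      omega)
  have line : ∀ {W : Submodule F V} {x : V}, finrank F W = 1 → x ∈ W → x ≠ 0 → W = Submodule.span F {x} := by
    intro W x hW hx hx0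
    refine (Submodule.eq_of_le_of_finrank_le (by simpa [Submodule.span_singleton_le_iff_mem] using hx) ?_).symm
    rw [hW, finrank_span_singleton hx0]
  have hek : ∀ k, k ≠ P 0 → k ≠ P 1 → e ∈ ρ.D (tri (P 0) (P 1) k) := by
    intro k hk0 hk1
    by_cases hk2 : k = P 2
    · rw [hk2]; exact he.1
    by_cases hk3 : k = P 3
    · rw [hk3]; exact he.2
    have n02 : P 0 ≠ P 2 := ne (by omega) (by omega) (by omega)
    have n03 : P 0 ≠ P 3 := ne (by omega) (by omega) (by omega)
    have n12 : P 1 ≠ P 2 := ne (by omega) (by omega) (by omega)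
    have n13 : P 1 ≠ P 3 := ne (by omega) (by omega) (by omega)
    have n23 : P 2 ≠ P 3 := ne (by omega) (by omega) (by omega)
    set A := ρ.D (tri (P 0) (P 1) k)
    set B := ρ.D (tri (P 0) (P 1) (P 2))
    set C := ρ.D (tri (P 0) (P 1) (P 3))
    by_contra hA
    have hBC : B ⊓ C = Submodule.span F {e} := line (inf1 n01 n02 n03 n12 n13 n23) he he0
    have hdis : (A ⊓ B) ⊓ (A ⊓ C) = ⊥ := by
      rw [eq_bot_iff]
      rintro v ⟨⟨hvA, hvB⟩, -, hvC⟩
      obtain ⟨t, rfl⟩ := Submodule.mem_span_singleton.1 (hBC.le ⟨hvB, hvC⟩)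
      by_cases ht : t = 0
      · simp [ht]
      · exact absurd (by simpa [ht] using A.smul_mem t⁻¹ hvA) hA
    have h2' := Submodule.finrank_sup_add_finrank_inf_eq (A ⊓ B) (A ⊓ C)
    rw [hdis, finrank_bot, inf1 n01 (Ne.symm hk0) n02 (Ne.symm hk1) n12 hk2,
      inf1 n01 (Ne.symm hk0) n03 (Ne.symm hk1) n13 hk3] at h2'
    have hAeq : (A ⊓ B) ⊔ (A ⊓ C) = A := Submodule.eq_of_le_of_finrank_le (sup_le inf_le_left inf_le_left) (by
      rw [show finrank F A = 2 from hdc (in3_univ n01 (Ne.symm hk0) (Ne.symm hk1))]; omega)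
    have hA' : A ≤ B ⊔ C := hAeq ▸ sup_le (le_sup_of_le_left inf_le_right) (le_sup_of_le_right inf_le_right)
    have hc := c5 (a := P 0) (b := P 1) (c := P 2) (p := P 3) (q := k) n01 n02 n03 (Ne.symm hk0) n12 n13
      (Ne.symm hk1) n23 (Ne.symm hk2) (Ne.symm hk3)
    have e5 := ex _ (le_of_le_of_eq (by omega : 3 ≤ 5) hc.symm) hc.le
    have hS : ρ.S ({k, P 3, P 2, P 0, P 1} : Finset (Fin r)) ≤ B ⊔ C := by
      refine (S_insert (ρ := ρ) (p := P 0) (q := P 1) (by simp) (by simp) n01 (by simp [hk0, hk1, hk2, hk3])).trans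
        (sup_le ((S_insert (ρ := ρ) (p := P 0) (q := P 1) (by simp) (by simp) n01
          (by simp [n03.symm, n13.symm, n23.symm])).trans (sup_le_sup_right (S_three n01 n02 n12) _)) hA')
    have h3 := Submodule.finrank_mono hS
    have h4 := Submodule.finrank_sup_add_finrank_inf_eq B C
    rw [inf1 n01 n02 n03 n12 n13 n23, show finrank F B = 2 from hdc (in3_univ n01 n02 n12),
      show finrank F C = 2 from hdc (in3_univ n01 n03 n13)] at h4
    omega
  -- the stabiliser fixes `e`
  have stab : ∀ g : Perm (Fin r), sign g = 1 → g (P 0) = P 0 → g (P 1) = P 1 → ρ.R g e = e := by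
    intro g hg g0 g1
    let pr : Fin r → Prop := fun x => x ≠ P 0 ∧ x ≠ P 1
    have hpr : ∀ x, pr (g x) ↔ pr x := fun x => by
      simp only [pr, ne_eq]
      rw [not_congr (show g x = P 0 ↔ x = P 0 from ⟨fun h => g.injective (h.trans g0.symm), fun h => h ▸ g0⟩),
        not_congr (show g x = P 1 ↔ x = P 1 from ⟨fun h => g.injective (h.trans g1.symm), fun h => h ▸ g1⟩)]
    have hgeq : Perm.ofSubtype (g.subtypePerm (p := pr) hpr) = g := Perm.ofSubtype_subtypePerm hpr fun x hx => by
      refine ⟨fun e => hx (by rw [e, g0]), fun e => hx (by rw [e, g1])⟩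
    have hmem : g.subtypePerm (p := pr) hpr ∈ Subgroup.closure {σ : Perm (Subtype pr) | IsThreeCycle σ} := by
      rw [closure_three_cycles_eq_alternating, mem_alternatingGroup, ← Perm.sign_ofSubtype, hgeq, hg]
    have hle : (Subgroup.closure {σ : Perm (Subtype pr) | IsThreeCycle σ}).map Perm.ofSubtype ≤
        (ρ.fixer ({e} : Set V)).map (alternatingGroup (Fin r)).subtype := by
      rw [MonoidHom.map_closure, Subgroup.closure_le]
      rintro _ ⟨σ, hσ, rfl⟩
      have h3 : IsThreeCycle (Perm.ofSubtype σ) := (Perm.cycleType_ofSubtype).trans hσ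
      obtain ⟨k, hk⟩ : ∃ k, Perm.ofSubtype σ k ≠ k := by
        by_contra hh
        push Not at hh
        exact h3.ne_one (Equiv.ext hh)
      have hmoved : ∀ x, Perm.ofSubtype σ x ≠ x → pr x := fun x hx => by
        by_contra hp
        exact hx (Perm.ofSubtype_apply_of_not_mem σ hp)
      obtain ⟨u, w, hu, hw, huw, heq⟩ := exists_tri_of_moves h3 hk
      have pu : pr u := hmoved u (by rw [heq, tri_apply_first hu hw.symm]; exact hu.symm)
      have pw : pr w := hmoved w (by rw [heq, tri_apply_third huw hw.symm]; exact huw)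
      have pk : pr k := hmoved k hk
      obtain ⟨l, hl⟩ := exists_avoid ({u, k, w, P 0, P 1} : Finset (Fin r))
        ((Finset.card_le_five).trans_lt (by omega))
      simp only [Finset.mem_insert, Finset.mem_singleton, not_or] at hl
      refine ⟨⟨_, h3.mem_alternatingGroup⟩, ?_, rfl⟩
      intro v hv
      obtain rfl : v = e := hv
      show ρ.R (Perm.ofSubtype σ) v = v
      rw [heq]
      refine ρ.fix_D (hZ (P 0) (P 1) l u k w (in3_univ n01 (Ne.symm hl.2.2.2.1) (Ne.symm hl.2.2.2.2))
        (in3_univ hu huw (Ne.symm hw)) ?_) (hek l hl.2.2.2.1 hl.2.2.2.2)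
      simp only [Finset.disjoint_left, Finset.mem_insert, Finset.mem_singleton]
      rintro x (rfl | rfl | rfl) (h | h | h)
      exacts [pu.1 h.symm, pk.1 h.symm, pw.1 h.symm, pu.2 h.symm, pk.2 h.symm, pw.2 h.symm, hl.1 h, hl.2.1 h, hl.2.2.1 h]
    obtain ⟨g', hg', e'⟩ := hle (Subgroup.mem_map_of_mem Perm.ofSubtype hmem)
    rw [hgeq] at e'
    rw [← e']
    exact hg' e rfl
  -- the vectors of pairs
  have htr : ∀ i j : Fin r, i ≠ j → ∃ g : Perm (Fin r), sign g = 1 ∧ g (P 0) = i ∧ g (P 1) = j := by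
    intro i j hij
    obtain ⟨σ, hσ⟩ : ∃ σ : Perm (Fin r), σ (P 0) = i ∧ σ (P 1) = j := by
      refine ⟨Equiv.swap (Equiv.swap (P 0) i (P 1)) j * Equiv.swap (P 0) i, ?_, by simp⟩
      rw [Perm.mul_apply, swap_apply_left, swap_apply_of_ne_of_ne _ hij]
      intro h
      exact n01 ((Equiv.swap (P 0) i).injective (by rw [swap_apply_left]; exact h))
    rcases Int.units_eq_one_or (sign σ) with h | h
    · exact ⟨σ, h, hσ.1, hσ.2⟩
    · refine ⟨σ * swap (P 2) (P 3), ?_, ?_, ?_⟩
      · rw [Perm.sign_mul, h, sign_swap (ne (by omega) (by omega) (by omega))]; rfl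
      · rw [Perm.mul_apply, swap_apply_of_ne_of_ne (ne (by omega) (by omega) (by omega)) (ne (by omega) (by omega) (by omega))]
        exact hσ.1
      · rw [Perm.mul_apply, swap_apply_of_ne_of_ne (ne (by omega) (by omega) (by omega)) (ne (by omega) (by omega) (by omega))]
        exact hσ.2
  choose G hG using htr
  let E : Fin r → Fin r → V := fun i j => if h : i ≠ j then ρ.R (G i j h) e else 0
  have hE : ∀ {i j : Fin r}, i ≠ j → ∀ {g : Perm (Fin r)}, sign g = 1 → g (P 0) = i → g (P 1) = j → E i j = ρ.R g e := by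
    intro i j h g hg g0 g1
    obtain ⟨k1, k2, k3⟩ := hG i j h
    have := stab ((G i j h)⁻¹ * g) (by simp [hg, k1]) (by rw [Perm.mul_apply, g0, Perm.inv_eq_iff_eq, k2])
      (by rw [Perm.mul_apply, g1, Perm.inv_eq_iff_eq, k3])
    simp only [E, dif_pos h]
    conv_lhs => rw [← this, ← Module.End.mul_apply, ← ρ.map_mul _ _ k1 (by simp [hg, k1]), mul_inv_cancel_left]
  have hEq : ∀ {h : Perm (Fin r)}, sign h = 1 → ∀ {i j : Fin r}, i ≠ j → ρ.R h (E i j) = E (h i) (h j) := by
    intro h hh i j hij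
    obtain ⟨k1, k2, k3⟩ := hG i j hij
    rw [hE hij k1 k2 k3, ← Module.End.mul_apply, ← ρ.map_mul _ _ hh k1]
    exact (hE (fun e => hij (h.injective e)) (by simp [hh, k1]) (by rw [Perm.mul_apply, k2]) (by rw [Perm.mul_apply, k3])).symm
  have hE0 : E (P 0) (P 1) = e := by rw [hE n01 (g := 1) Perm.sign_one rfl rfl, ρ.map_one]; rfl
  have hEne : ∀ {i j : Fin r}, i ≠ j → E i j ≠ 0 := fun {i j} h hz => by
    obtain ⟨k1, k2, k3⟩ := hG i j h
    rw [hE h k1 k2 k3] at hz
    exact he0 (ρ.injective k1 (hz.trans (map_zero _).symm))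
  have hED : ∀ {i j k : Fin r}, i ≠ j → i ≠ k → j ≠ k → E i j ∈ ρ.D (tri i j k) := by
    intro i j k h1 h2 h3
    obtain ⟨k1, k2, k3⟩ := hG i j h1
    rw [hE h1 k1 k2 k3]
    set g := G i j h1
    have hk0 : g⁻¹ k ≠ P 0 := fun e => h2 (by rw [Perm.inv_eq_iff_eq] at e; rw [e, k2])
    have hk1 : g⁻¹ k ≠ P 1 := fun e => h3 (by rw [Perm.inv_eq_iff_eq] at e; rw [e, k3])
    have := ρ.map_D k1 (sign_tri n01 hk0.symm hk1.symm) ⟨e, hek _ hk0 hk1, rfl⟩
    rwa [conj_tri, k2, k3, show g (g⁻¹ k) = k from Equiv.apply_symm_apply g k] at this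
  have hsum : ∀ {i j k : Fin r}, i ≠ j → i ≠ k → j ≠ k → E i j + E j k + E k i = 0 := by
    intro i j k h1 h2 h3
    have ht := sign_tri h1 h2 h3
    have r1 : E j k = ρ.R (tri i j k) (E i j) := by
      rw [hEq ht h1, tri_apply_first h1 h3, tri_apply_second]
    have r2 : E k i = ρ.R (tri i j k) (E j k) := by
      rw [hEq ht h3, tri_apply_second, tri_apply_third h2 h3]
    obtain ⟨v, hv⟩ := hED h1 h2 h3
    rw [r2, r1, ← hv]
    set X := ρ.R (tri i j k)
    have h3' : X * X * X = 1 := by
      rw [← ρ.map_mul _ _ ht ht, ← ρ.map_mul _ _ (by simp [ht]) ht]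
      rw [show tri i j k * tri i j k * tri i j k = tri i j k ^ 3 by rw [pow_succ, pow_two],
        ← (isThreeCycle_tri h1 h2 h3).orderOf, pow_orderOf_eq_one, ρ.map_one]
    have := LinearMap.congr_fun h3' v
    simp only [Module.End.mul_apply, Module.End.one_apply] at this
    simp only [LinearMap.sub_apply, Module.End.one_apply, map_sub, this]
    abel
  -- reversal
  obtain ⟨lam, hlam⟩ : ∃ t : F, E (P 1) (P 0) = t • e := by
    have n02 : P 0 ≠ P 2 := ne (by omega) (by omega) (by omega)
    have n03 : P 0 ≠ P 3 := ne (by omega) (by omega) (by omega)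
    have n12 : P 1 ≠ P 2 := ne (by omega) (by omega) (by omega)
    have n13 : P 1 ≠ P 3 := ne (by omega) (by omega) (by omega)
    have n23 : P 2 ≠ P 3 := ne (by omega) (by omega) (by omega)
    have hin : E (P 1) (P 0) ∈ ρ.D (tri (P 0) (P 1) (P 2)) ⊓ ρ.D (tri (P 0) (P 1) (P 3)) := by
      refine ⟨?_, ?_⟩
      · rw [← ρ.D_tri_rot n01 n02 n12]; exact hED n01.symm n12 n02
      · rw [← ρ.D_tri_rot n01 n03 n13]; exact hED n01.symm n13 n03
    obtain ⟨t, ht⟩ := Submodule.mem_span_singleton.1 ((line (inf1 n01 n02 n03 n12 n13 n23) he he0).le hin)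
    exact ⟨t, ht.symm⟩
  have hrev : ∀ {i j : Fin r}, i ≠ j → E j i = lam • E i j := by
    intro i j h
    obtain ⟨k1, k2, k3⟩ := hG i j h
    have := hEq k1 n01.symm (h := G i j h)
    rw [k2, k3, hlam, map_smul, ← hE h k1 k2 k3] at this
    exact this.symm
  have hl2 : lam * lam = 1 := by
    have h1 := hrev (i := P 0) (j := P 1) n01
    have h2 := hrev (i := P 1) (j := P 0) n01.symm
    rw [h1, hE0, smul_smul] at h2
    exact smul_left_injective F he0 (by simpa using h2.symm)
  -- moving triangles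
  have htr3 : ∀ {i j k x y z : Fin r}, i ≠ j → i ≠ k → j ≠ k → x ≠ y → x ≠ z → y ≠ z →
      ∃ g : Perm (Fin r), sign g = 1 ∧ g i = x ∧ g j = y ∧ g k = z := by
    intro i j k x y z h1 h2 h3 q1 q2 q3
    have hinj : ∀ {p q s : Fin r}, p ≠ q → p ≠ s → q ≠ s → Function.Injective ![p, q, s] := by
      intro p q s u v w m l hml
      fin_cases m <;> fin_cases l <;> simp only [Matrix.cons_val] at hml <;> first | rfl | exact absurd hml u | exact absurd hml.symm u | exact absurd hml v | exact absurd hml.symm v | exact absurd hml w | exact absurd hml.symm w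
    obtain ⟨σ, hσ⟩ := Equiv.Perm.exists_extending_pair ![i, j, k] ![x, y, z] (hinj h1 h2 h3) (hinj q1 q2 q3)
    have s0 : σ i = x := hσ 0
    have s1 : σ j = y := hσ 1
    have s2 : σ k = z := hσ 2
    rcases Int.units_eq_one_or (sign σ) with h | h
    · exact ⟨σ, h, s0, s1, s2⟩
    · obtain ⟨u, hu⟩ := exists_avoid ({i, j, k} : Finset (Fin r)) (Finset.card_le_three.trans_lt (by omega))
      obtain ⟨w, hw⟩ := exists_avoid ({i, j, k, u} : Finset (Fin r)) (Finset.card_le_four.trans_lt (by omega))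
      simp only [Finset.mem_insert, Finset.mem_singleton, not_or] at hu hw
      refine ⟨σ * swap u w, ?_, ?_, ?_, ?_⟩
      · rw [Perm.sign_mul, h, sign_swap (Ne.symm hw.2.2.2)]; rfl
      · rw [Perm.mul_apply, swap_apply_of_ne_of_ne (Ne.symm hu.1) (Ne.symm hw.1)]; exact s0
      · rw [Perm.mul_apply, swap_apply_of_ne_of_ne (Ne.symm hu.2.1) (Ne.symm hw.2.1)]; exact s1
      · rw [Perm.mul_apply, swap_apply_of_ne_of_ne (Ne.symm hu.2.2) (Ne.symm hw.2.2.1)]; exact s2
  -- independence in a triangle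
  have hDspan : ∀ {i j k : Fin r}, i ≠ j → i ≠ k → j ≠ k → ρ.D (tri i j k) ≤ Submodule.span F {E i j, E i k} := by
    intro i j k h1 h2 h3
    have hnspan : E j k ∉ Submodule.span F {E i j} := by
      intro hjk
      have adj : ∀ {x y z : Fin r}, x ≠ y → x ≠ z → y ≠ z → E y z ∈ Submodule.span F {E x y} := by
        intro x y z q1 q2 q3
        obtain ⟨g, hg, g1, g2, g3⟩ := htr3 h1 h2 h3 q1 q2 q3
        obtain ⟨t, ht⟩ := Submodule.mem_span_singleton.1 hjk
        refine Submodule.mem_span_singleton.2 ⟨t, ?_⟩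
        have := congrArg (ρ.R g) ht
        rwa [map_smul, hEq hg h1, hEq hg h3, g1, g2, g3] at this
      have tr : ∀ {u v w : V}, u ∈ Submodule.span F {v} → v ∈ Submodule.span F {w} → u ∈ Submodule.span F {w} :=
        fun hu hv => (Submodule.span_singleton_le_iff_mem _ _).2 hv hu
      have sym : ∀ {x y : Fin r}, x ≠ y → E y x ∈ Submodule.span F {E x y} := fun h => by
        rw [hrev h]; exact Submodule.smul_mem _ _ (Submodule.mem_span_singleton_self _)
      -- every line is the line of `e`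
      have all : ∀ {x y : Fin r}, x ≠ y → E x y ∈ Submodule.span F {e} := by
        have one : ∀ {y : Fin r}, y ≠ P 1 → E (P 1) y ∈ Submodule.span F {e} := fun {y} hy1 => by
          rw [← hE0]
          by_cases hy0 : y = P 0
          · rw [hy0]; exact sym n01
          · exact adj n01 (Ne.symm hy0) (Ne.symm hy1)
        intro x y hxy
        by_cases hx : x = P 1
        · subst hx; exact one hxy.symm
        by_cases hy : y = P 1
        · subst hy; exact tr (sym (Ne.symm hx)) (one hx)
        exact tr (adj (Ne.symm hx) (Ne.symm hy) hxy) (one hx)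
      have hfix : ∀ {x y z : Fin r}, x ≠ y → x ≠ z → y ≠ z → ρ.R (tri x y z) e = e := by
        intro x y z q1 q2 q3
        obtain ⟨u, hu⟩ := exists_avoid ({x, y, z} : Finset (Fin r)) (Finset.card_le_three.trans_lt (by omega))
        obtain ⟨w, hw⟩ := exists_avoid ({x, y, z, u} : Finset (Fin r)) (Finset.card_le_four.trans_lt (by omega))
        obtain ⟨l, hl⟩ := exists_avoid ({x, y, z, u, w} : Finset (Fin r)) (Finset.card_le_five.trans_lt (by omega))
        simp only [Finset.mem_insert, Finset.mem_singleton, not_or] at hu hw hl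
        have huw : u ≠ w := Ne.symm hw.2.2.2
        have hul : u ≠ l := Ne.symm hl.2.2.2.1
        have hwl : w ≠ l := Ne.symm hl.2.2.2.2
        have hf := ρ.fix_D (hZ u w l x y z (in3_univ huw hul hwl) (in3_univ q1 q2 q3) (by
          simp only [Finset.disjoint_left, Finset.mem_insert, Finset.mem_singleton]
          rintro m (rfl | rfl | rfl) (h | h | h)
          exacts [hu.1 h, hu.2.1 h, hu.2.2 h, hw.1 h, hw.2.1 h, hw.2.2.1 h, hl.1 h, hl.2.1 h, hl.2.2.1 h]))
          (hED huw hul hwl)
        obtain ⟨t, ht⟩ := Submodule.mem_span_singleton.1 (all huw)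
        rw [← ht, map_smul] at hf
        exact smul_right_injective V (fun e0 => hEne huw (by rw [← ht, e0, zero_smul])) hf
      have hMD : ∀ {x y z : Fin r}, x ≠ y → x ≠ z → y ≠ z → Submodule.span F {e} ≤ ρ.D (tri x y z) := by
        intro x y z q1 q2 q3
        obtain ⟨t, ht⟩ := Submodule.mem_span_singleton.1 (all q1)
        have t0 : t ≠ 0 := fun e0 => hEne q1 (by rw [← ht, e0, zero_smul])
        rw [Submodule.span_singleton_le_iff_mem, show e = t⁻¹ • E x y by rw [← ht, inv_smul_smul₀ t0]]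
        exact Submodule.smul_mem _ _ (hED q1 q2 q3)
      have n : ∀ (i j : ℕ), i < 9 → j < 9 → i ≠ j → P i ≠ P j := fun _ _ hi hj h => ne hi hj h
      have n01' := n 0 1 (by omega) (by omega) (by omega)
      have n02 := n 0 2 (by omega) (by omega) (by omega)
      have n03 := n 0 3 (by omega) (by omega) (by omega)
      have n04 := n 0 4 (by omega) (by omega) (by omega)
      have n12 := n 1 2 (by omega) (by omega) (by omega)
      have n13 := n 1 3 (by omega) (by omega) (by omega)
      have n14 := n 1 4 (by omega) (by omega) (by omega)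
      have n23 := n 2 3 (by omega) (by omega) (by omega)
      have n24 := n 2 4 (by omega) (by omega) (by omega)
      have n34 := n 3 4 (by omega) (by omega) (by omega)
      have hc := c5 n01' n02 n03 n04 n12 n13 n14 n23 n24 n34
      have l5 := ex _ (le_of_le_of_eq (by omega : 3 ≤ 5) hc.symm) hc.le
      have u5 := five_le (ρ := ρ) (M := Submodule.span F {e}) n01' n02 n03 n04 n12 n13 n14 n23 n24 n34
        (fun v hv => by
          obtain ⟨t, rfl⟩ := Submodule.mem_span_singleton.1 hv
          rw [map_smul, hfix n23 n24 n34])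
        (hMD n01' n02 n12) (hMD n23 n24 n34)
        (by rw [hdc (in3_univ n01' n02 n12), finrank_span_singleton he0])
        (by rw [hdc (in3_univ n23 n24 n34), finrank_span_singleton he0])
      rw [finrank_span_singleton he0] at u5
      omega
    have h1D : E i j ∈ ρ.D (tri i j k) := hED h1 h2 h3
    have h2D : E j k ∈ ρ.D (tri i j k) := by
      rw [tri_rotate h1 h2 h3]; exact hED h3 h1.symm h2.symm
    have hlt : Submodule.span F {E i j} < Submodule.span F {E i j, E j k} :=
      lt_of_le_of_ne (Submodule.span_mono (by simp)) fun e' => hnspan (e' ▸ Submodule.subset_span (by simp))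
    have := Submodule.finrank_lt_finrank_of_lt hlt
    rw [finrank_span_singleton (hEne h1)] at this
    have heq : Submodule.span F {E i j, E j k} = ρ.D (tri i j k) := by
      refine Submodule.eq_of_le_of_finrank_le ?_ (by rw [hdc (in3_univ h1 h2 h3)]; omega)
      rw [Submodule.span_le]
      rintro x (rfl | rfl)
      exacts [h1D, h2D]
    rw [← heq, Submodule.span_le]
    rintro x (rfl | rfl)
    · exact Submodule.subset_span (by simp)
    · rw [show E j k = -E i j - E k i by rw [← sub_eq_zero, ← hsum h1 h2 h3]; abel, hrev h2]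
      exact sub_mem (neg_mem (Submodule.subset_span (by simp))) (Submodule.smul_mem _ _ (Submodule.subset_span (by simp)))
  -- independence at a vertex
  have hind3 : ∀ {i a b c : Fin r}, i ≠ a → i ≠ b → i ≠ c → a ≠ b → a ≠ c → b ≠ c →
      LinearIndependent F ![E i a, E i b, E i c] := by
    intro i a b c h1 h2 h3 h4 h5 h6
    rw [linearIndependent_iff_card_eq_finrank_span, Fintype.card_fin]
    have hle : ρ.S ({c, b, i, a} : Finset (Fin r)) ≤ Submodule.span F (Set.range ![E i a, E i b, E i c]) := by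
      have m : ∀ x, x ∈ ({E i a, E i b, E i c} : Set V) → x ∈ Submodule.span F (Set.range ![E i a, E i b, E i c]) := by
        rintro x (rfl | rfl | rfl) <;> refine Submodule.subset_span ?_
        exacts [⟨0, rfl⟩, ⟨1, rfl⟩, ⟨2, rfl⟩]
      refine (S_insert (ρ := ρ) (p := i) (q := a) (by simp) (by simp) h1
        (by simp [h3.symm, h5.symm, h6.symm])).trans (sup_le ((S_three h1 h2 h4).trans ((hDspan h1 h2 h4).trans ?_))
          ((hDspan h1 h3 h5).trans ?_)) <;>
      · rw [Submodule.span_le]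
        rintro x (rfl | rfl) <;> exact m _ (by simp)
    have hc4 : ({c, b, i, a} : Finset (Fin r)).card = 4 := by
      simp [h1, h2.symm, h3.symm, h4.symm, h5.symm, h6.symm]
    have e4 := ex ({c, b, i, a} : Finset (Fin r)) (by omega) (by omega)
    have l := Submodule.finrank_mono hle
    have u := finrank_range_le_card (R := F) ![E i a, E i b, E i c]
    rw [Fintype.card_fin] at u
    rw [Set.finrank] at u ⊢
    omega
  have n02 : P 0 ≠ P 2 := ne (by omega) (by omega) (by omega)
  have n03 : P 0 ≠ P 3 := ne (by omega) (by omega) (by omega)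
  have n12 : P 1 ≠ P 2 := ne (by omega) (by omega) (by omega)
  have n13 : P 1 ≠ P 3 := ne (by omega) (by omega) (by omega)
  have n23 : P 2 ≠ P 3 := ne (by omega) (by omega) (by omega)
  have hlam : lam = -1 := by
    have I := Fintype.linearIndependent_iff.1 (hind3 n01 n02 n03 n12 n13 n23)
      ![1 + lam, 1 + lam, 1 + lam] (by
        rw [Fin.sum_univ_three]
        show (1 + lam) • E (P 0) (P 1) + (1 + lam) • E (P 0) (P 2) + (1 + lam) • E (P 0) (P 3) = 0
        have t1 := hsum n01 n02 n12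
        have t2 := hsum n01 n03 n13
        have t3 := hsum n02 n03 n23
        have t4 := hsum n12 n13 n23
        rw [hrev n02] at t1
        rw [hrev n03] at t2 t3
        rw [hrev n13] at t4
        have a1 : E (P 1) (P 2) = -E (P 0) (P 1) - lam • E (P 0) (P 2) := by rw [← sub_eq_zero, ← t1]; abel
        have a2 : E (P 1) (P 3) = -E (P 0) (P 1) - lam • E (P 0) (P 3) := by rw [← sub_eq_zero, ← t2]; abel
        have a3 : E (P 2) (P 3) = -E (P 0) (P 2) - lam • E (P 0) (P 3) := by rw [← sub_eq_zero, ← t3]; abel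
        rw [a1, a2, a3, smul_sub, smul_neg, smul_smul, hl2, one_smul] at t4
        rw [← neg_eq_zero, ← t4]
        module) 0
    exact eq_neg_of_add_eq_zero_right I
  -- the vectors of points
  let v : Fin r → V := fun x => E (P 0) x
  have hv0 : v (P 0) = 0 := by simp [v, E]
  have hvv : ∀ x y, x ≠ y → E x y = v y - v x := by
    intro x y hxy
    by_cases hx : x = P 0
    · subst hx; rw [hv0, sub_zero]
    by_cases hy : y = P 0
    · subst hy; rw [hv0, zero_sub, hrev (Ne.symm hx), hlam, neg_one_smul]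
    · have := hsum (Ne.symm hx) (Ne.symm hy) hxy
      rw [hrev (Ne.symm hy), hlam, neg_one_smul] at this
      show _ = E (P 0) y - E (P 0) x
      rw [← sub_eq_zero, ← this]
      abel
  have hgv : ∀ g : Perm (Fin r), sign g = 1 → ∀ x, ρ.R g (v x) = v (g x) - v (g (P 0)) := by
    intro g hg x
    by_cases hx : x = P 0
    · subst hx; rw [hv0, map_zero, sub_self]
    · show ρ.R g (E (P 0) x) = _
      rw [hEq hg (Ne.symm hx)]
      exact hvv _ _ (fun h => hx (g.injective h).symm)
  -- a dependence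
  have hdep : ¬ LinearIndependent F (fun x : {x // x ≠ P 0} => v x) := by
    intro h
    have := h.fintype_card_le_finrank
    rw [Fintype.card_subtype_compl, Fintype.card_fin, Fintype.card_subtype_eq] at this
    omega
  rw [Fintype.linearIndependent_iff] at hdep
  push Not at hdep
  obtain ⟨c, hc, ⟨x0, hx0⟩, hcx⟩ := hdep
  let c' : Fin r → F := fun x => if h : x = P 0 then 0 else c ⟨x, h⟩
  have hc' : ∑ x, c' x • v x = 0 := by
    rw [← Finset.add_sum_erase _ _ (Finset.mem_univ (P 0)), show c' (P 0) • v (P 0) = 0 by rw [hv0, smul_zero],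
      zero_add, ← hc]
    refine Finset.sum_bij' (fun x hx => ⟨x, Finset.ne_of_mem_erase hx⟩) (fun x _ => x.1) (fun _ _ => Finset.mem_univ _)
      (fun x _ => Finset.mem_erase.2 ⟨x.2, Finset.mem_univ _⟩) (fun _ _ => rfl) (fun _ _ => rfl) fun x hx => ?_
    simp only [c', dif_neg (Finset.ne_of_mem_erase hx)]
  have cc : ∀ a b k : Fin r, a ≠ P 0 → b ≠ P 0 → k ≠ P 0 → a ≠ b → a ≠ k → b ≠ k → c' a = c' b := by
    intro a b k a0 b0 k0 hab hak hbk
    have ht := sign_tri hab hak hbk
    have h2 := congrArg (ρ.R (tri a b k)) hc'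
    simp only [map_sum, map_smul, map_zero, hgv _ ht,
      tri_apply_of_ne (Ne.symm a0) (Ne.symm b0) (Ne.symm k0), hv0, sub_zero] at h2
    have h3 : ∑ x, c' x • (v (tri a b k x) - v x) = 0 := by
      simp only [smul_sub, Finset.sum_sub_distrib, h2, hc', sub_zero]
    rw [← Finset.sum_subset (Finset.subset_univ ({a, b, k} : Finset (Fin r))) (fun x _ hx => by
      simp only [Finset.mem_insert, Finset.mem_singleton, not_or] at hx
      rw [tri_apply_of_ne hx.1 hx.2.1 hx.2.2, sub_self, smul_zero])] at h3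
    rw [Finset.sum_insert (by simp [hab, hak]), Finset.sum_insert (by simp [hbk]), Finset.sum_singleton,
      tri_apply_first hab hbk, tri_apply_second, tri_apply_third hak hbk] at h3
    have I := Fintype.linearIndependent_iff.1 (hind3 a0.symm b0.symm k0.symm hab hak hbk)
      ![c' k - c' a, c' a - c' b, c' b - c' k] (by
        rw [Fin.sum_univ_three]
        show (c' k - c' a) • v a + (c' a - c' b) • v b + (c' b - c' k) • v k = 0
        rw [← h3]
        module) 1
    exact sub_eq_zero.1 I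
  have hconst : ∀ x, x ≠ P 0 → c' x = c' x0 := by
    intro x hx
    by_cases hxx : x = x0
    · rw [hxx]
    obtain ⟨k, hk⟩ := exists_avoid ({P 0, x, x0} : Finset (Fin r)) (Finset.card_le_three.trans_lt (by omega))
    simp only [Finset.mem_insert, Finset.mem_singleton, not_or] at hk
    exact cc x x0 k hx hx0 hk.1 hxx (Ne.symm hk.2.1) (Ne.symm hk.2.2)
  have hne0 : c' x0 ≠ 0 := by simpa [c', hx0] using hcx
  have htot : ∑ x, v x = 0 := by
    have : ∑ x, c' x • v x = c' x0 • ∑ x, v x := by
      rw [Finset.smul_sum]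
      refine Finset.sum_congr rfl fun x _ => ?_
      by_cases hx : x = P 0
      · rw [hx, hv0, smul_zero, smul_zero]
      · rw [hconst x hx]
    rw [this] at hc'
    exact (smul_eq_zero.1 hc').resolve_left hne0
  have ht := sign_tri n01 n02 n12
  have h4 := congrArg (ρ.R (tri (P 0) (P 1) (P 2))) htot
  simp only [map_sum, map_zero, hgv _ ht, tri_apply_first n01 n12, Finset.sum_sub_distrib,
    Equiv.sum_comp (tri (P 0) (P 1) (P 2)) v, Finset.sum_const, Finset.card_univ, Fintype.card_fin] at h4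
  rw [htot, zero_sub, neg_eq_zero] at h4
  rw [← Nat.cast_smul_eq_nsmul F] at h4
  exact (smul_eq_zero.1 h4).resolve_right (hEne n01)

end Rep

end Cfsg.Agent.Lib.AltDeg
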