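import Mathlib

/-!
# Operators with a finite order and separated eigenvectors
-/

set_option autoImplicit false

namespace Cfsg.Agent.Lib.AltDeg

open Module

variable {F : Type*} [Field F] {V : Type*} [AddCommGroup V] [Module F V]

/-- Eigenvectors separated by some operator are independent. -/
theorem linearIndependent_of_separated {ι L : Type*} [Fintype ι] (X : L → Module.End F V) (μ : ι → L → F)
    (v : ι → V) (hv : ∀ i, v i ≠ 0) (heig : ∀ i l, X l (v i) = μ i l • v i) (hμ : Function.Injective μ) :
    LinearIndependent F v := by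
  classical
  rw [Fintype.linearIndependent_iff]
  intro c hc i
  have hstep : ∀ s : Finset ι, i ∉ s → ∃ d : ι → F, d i ≠ 0 ∧ (∀ j ∈ s, d j = 0) ∧ ∑ j, (c j * d j) • v j = 0 := by
    intro s
    induction s using Finset.induction_on with
    | empty => exact fun _ => ⟨fun _ => 1, one_ne_zero, by simp, by simpa using hc⟩
    | @insert a s has ih =>
      intro hi
      simp only [Finset.mem_insert, not_or] at hi
      obtain ⟨d, hdi, hds, hsum⟩ := ih hi.2
      obtain ⟨l, hl⟩ : ∃ l, μ i l ≠ μ a l := by
        by_contra h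
        push Not at h
        exact hi.1 (hμ (funext h))
      refine ⟨fun j => d j * (μ j l - μ a l), mul_ne_zero hdi (sub_ne_zero.2 hl), ?_, ?_⟩
      · intro j hj
        rcases Finset.mem_insert.1 hj with rfl | hj
        · simp
        · simp [hds j hj]
      · have := congrArg (fun x => X l x - μ a l • x) hsum
        simp only [map_sum, map_smul, heig, smul_smul, Finset.smul_sum, map_zero, smul_zero, sub_zero,
          ← Finset.sum_sub_distrib, ← sub_smul] at this
        rw [← this]
        exact Finset.sum_congr rfl fun j _ => by ring_nf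
  obtain ⟨d, hdi, hds, hsum⟩ := hstep (Finset.univ.erase i) (by simp)
  rw [Finset.sum_eq_single i (fun j _ hj => by rw [hds j (by simp [hj]), mul_zero, zero_smul]) (by simp)] at hsum
  exact (mul_eq_zero.1 ((smul_eq_zero.1 hsum).resolve_right (hv i))).resolve_right hdi

variable [FiniteDimensional F V]

/-- An operator of order prime to the characteristic is diagonalisable. -/
theorem iSup_eigenspace_eq_top [IsAlgClosed F] {X : Module.End F V} {q : ℕ} (hq : (q : F) ≠ 0) (hX : X ^ q = 1) :
    ⨆ μ, X.eigenspace μ = ⊤ := by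
  have hsf : Squarefree (Polynomial.X ^ q - 1 : Polynomial F) :=
    (show (Polynomial.X ^ q - 1 : Polynomial F).Separable by
      simpa using Polynomial.separable_X_pow_sub_C (1 : F) hq one_ne_zero).squarefree
  have hss : X.IsSemisimple := Module.End.isSemisimple_of_squarefree_aeval_eq_zero hsf (by simp [hX])
  have := X.iSup_maxGenEigenspace_eq_top
  simpa [hss.isFinitelySemisimple.maxGenEigenspace_eq_eigenspace] using this

theorem eigen_root {X : Module.End F V} {q : ℕ} (hX : X ^ q = 1) {μ : F} {v : V} (hv : v ≠ 0)
    (h : X v = μ • v) : μ ^ q = 1 := by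
  have hp : ∀ k : ℕ, (X ^ k) v = μ ^ k • v := by
    intro k
    induction k with
    | zero => simp
    | succ k ih => rw [pow_succ', Module.End.mul_apply, ih, map_smul, h, smul_smul, pow_succ]
  have := hp q
  rw [hX, Module.End.one_apply] at this
  exact smul_left_injective F hv (by simpa using this.symm)

/-- An operator fixing every nontrivial eigenspace fixes the commutator space. -/
theorem fix_range [IsAlgClosed F] {X Y : Module.End F V} {q : ℕ} (hq : (q : F) ≠ 0) (hX : X ^ q = 1)
    (h : ∀ μ : F, μ ≠ 1 → ∀ v, X v = μ • v → Y v = v) : (Y - 1) * (X - 1) = 0 := by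
  have htop := iSup_eigenspace_eq_top hq hX
  refine LinearMap.ext fun v => ?_
  have hv : v ∈ ⨆ μ, X.eigenspace μ := by rw [htop]; exact Submodule.mem_top
  refine Submodule.iSup_induction _ (motive := fun v => ((Y - 1) * (X - 1)) v = (0 : Module.End F V) v) hv ?_ ?_ ?_
  · intro μ w hw
    rw [Module.End.mem_eigenspace_iff] at hw
    simp only [Module.End.mul_apply, LinearMap.sub_apply, Module.End.one_apply, hw, LinearMap.zero_apply]
    by_cases hμ : μ = 1
    · subst hμ; simp
    · rw [map_sub, map_smul, h μ hμ w hw, sub_self]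
  · simp
  · intro a b ha hb
    simp only [map_add, ha, hb]

/-- Conjugate eigenspaces. -/
theorem conj_eigenspace {X G : Module.End F V} {μ : F} {m m' q : ℕ} (hX : X ^ q = 1) (hG : X ^ m * G = G * X)
    (hm : m * m' % q = 1) {v : V} (hv : v ∈ X.eigenspace μ) : G v ∈ X.eigenspace (μ ^ m') := by
  rw [Module.End.mem_eigenspace_iff] at hv ⊢
  have h1 : (X ^ m) (G v) = μ • G v := by
    rw [← Module.End.mul_apply, hG, Module.End.mul_apply, hv, map_smul]
  have h2 : ∀ k : ℕ, ((X ^ m) ^ k) (G v) = μ ^ k • G v := by
    intro k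
    induction k with
    | zero => simp
    | succ k ih => rw [pow_succ', Module.End.mul_apply, ih, map_smul, h1, smul_smul, pow_succ]
  rw [← h2 m', ← pow_mul, ← Nat.mod_add_div (m * m') q, hm, pow_add, pow_mul, hX, one_pow, mul_one, pow_one]

/-- The nontrivial eigenspaces of an operator whose conjugates are all its powers. -/
theorem eigen_bound {X G : Module.End F V} {m m' q : ℕ} (hX : X ^ q = 1) (hG : X ^ m * G = G * X)
    (hGi : Function.Injective G) (hm : m * m' % q = 1)
    (hprim : Function.Injective fun k : Fin (q - 1) => m' ^ k.val % q) (hprime : q.Prime)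
    {μ : F} (hμ1 : μ ≠ 1) {b : ℕ} (hb : b ≤ finrank F (X.eigenspace μ)) (hb0 : 0 < b) :
    (q - 1) * b ≤ finrank F V := by
  classical
  obtain ⟨v, hv, hv0⟩ := Submodule.exists_mem_ne_zero_of_ne_bot (p := X.eigenspace μ) (fun e => by
    rw [e, finrank_bot] at hb; omega)
  have hμq : μ ^ q = 1 := eigen_root hX hv0 (Module.End.mem_eigenspace_iff.1 hv)
  have hord : orderOf μ = q := orderOf_eq_prime (hp := ⟨hprime⟩) hμq hμ1
  set ν : Fin (q - 1) → F := fun k => μ ^ (m' ^ k.val) with hν
  have hinj : Function.Injective ν := by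
    intro a c e
    refine hprim ?_
    simp only [hν] at e
    have h0 : μ ≠ 0 := fun h => by rw [h, zero_pow hprime.pos.ne'] at hμq; exact zero_ne_one hμq
    have := (pow_inj_mod (x := Units.mk0 μ h0)).1 (Units.ext (by simpa using e))
    rwa [← orderOf_units, Units.val_mk0, hord] at this
  have hdim : ∀ k : ℕ, b ≤ finrank F (X.eigenspace (μ ^ (m' ^ k))) := by
    intro k
    induction k with
    | zero => rw [pow_zero, pow_one]; exact hb
    | succ k ih =>
      refine ih.trans ?_
      have hmap : (X.eigenspace (μ ^ (m' ^ k))).map G ≤ X.eigenspace (μ ^ (m' ^ (k + 1))) := by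
        rintro _ ⟨w, hw, rfl⟩
        rw [pow_succ, pow_mul]
        exact conj_eigenspace hX hG hm hw
      exact (LinearEquiv.finrank_eq (Submodule.equivMapOfInjective G hGi _)).le.trans (Submodule.finrank_mono hmap)
  have hind : iSupIndep fun k : Fin (q - 1) => X.eigenspace (ν k) :=
    (Module.End.eigenspaces_iSupIndep X).comp hinj
  calc (q - 1) * b = ∑ _k : Fin (q - 1), b := by simp
    _ ≤ ∑ k : Fin (q - 1), finrank F (X.eigenspace (ν k)) := Finset.sum_le_sum fun k _ => hdim k
    _ ≤ finrank F V := by
      rw [← Module.finrank_directSum]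
      exact LinearMap.finrank_le_finrank_of_injective (hind.dfinsupp_lsum_injective)

-- the range of a product
omit [FiniteDimensional F V] in
theorem range_mul_sub_one (A B : Module.End F V) :
    LinearMap.range (A * B - 1) ≤ LinearMap.range (A - 1) ⊔ LinearMap.range (B - 1) := by
  rintro _ ⟨v, rfl⟩
  rw [show (A * B - 1) v = (A - 1) (B v) + (B - 1) v by
    simp only [LinearMap.sub_apply, Module.End.mul_apply, Module.End.one_apply]; abel]
  exact Submodule.add_mem_sup ⟨_, rfl⟩ ⟨_, rfl⟩

omit [FiniteDimensional F V] in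
theorem zero_of_range {A B : Module.End F V} (h : LinearMap.range B ≤ LinearMap.ker A) : A * B = 0 :=
  LinearMap.ext fun v => h ⟨v, rfl⟩

omit [FiniteDimensional F V] in
theorem range_of_zero {A B : Module.End F V} (h : A * B = 0) : LinearMap.range B ≤ LinearMap.ker A := by
  rintro _ ⟨v, rfl⟩
  exact LinearMap.congr_fun h v

end Cfsg.Agent.Lib.AltDeg
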