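import Cfsg.Agent.Lib.AltDeg.Spin

/-!
# The degree bound for faithful representations of a double cover
-/

set_option autoImplicit false
set_option maxRecDepth 4000

namespace Cfsg.Agent.Lib.AltDeg

open Equiv Equiv.Perm Cfsg.Agent.Lib.SchurAlt Module

universe u v w

variable {F : Type u} [Field F] {V : Type v} [AddCommGroup V] [Module F V] {Γ : Type w} [Group Γ]

theorem via_refl {r : ℕ} (h : Perm (Fin r)) : via (Function.Embedding.refl (Fin r)) h = h :=
  Equiv.ext fun i => via_apply_image (Function.Embedding.refl _) h i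

theorem eig_move {X X' G : Module.End F V} {μ : F} {m m' q : ℕ} (hX : X' ^ q = 1) (hG : X' ^ m * G = G * X)
    (hm : m * m' % q = 1) {v : V} (hv : X v = μ • v) : X' (G v) = μ ^ m' • G v := by
  have h1 : (X' ^ m) (G v) = μ • G v := by
    rw [← Module.End.mul_apply, hG, Module.End.mul_apply, hv, map_smul]
  have h2 : ∀ k : ℕ, ((X' ^ m) ^ k) (G v) = μ ^ k • G v := by
    intro k
    induction k with
    | zero => simp
    | succ k ih => rw [pow_succ', Module.End.mul_apply, ih, map_smul, h1, smul_smul, pow_succ]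
  rw [← h2 m', ← pow_mul, ← Nat.mod_add_div (m * m') q, hm, pow_add, pow_mul, hX, one_pow, mul_one, pow_one]

namespace Spin

variable {r : ℕ} (S : Spin r Γ F V) [FiniteDimensional F V] [IsAlgClosed F] [Nontrivial V]

omit [FiniteDimensional F V] [IsAlgClosed F] [Nontrivial V] in
theorem R_eq {x y : Γ} {m : ℕ} {x' : Γ} (h : x' ^ m * y = y * x) : S.R x' ^ m * S.R y = S.R y * S.R x := by
  rw [← map_pow, ← map_mul, h, map_mul]

theorem five_package (h2 : (2 : F) ≠ 0) (h5 : ((5 : ℕ) : F) ≠ 0) (ι : Fin 9 ↪ Fin r) :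
    ∃ X G μ, S.π X = via ι (tri 0 3 4 * tri 0 1 2) ∧ X ^ 5 = 1 ∧ S.R X ^ 2 * S.R G = S.R G * S.R X ∧ μ ≠ 1 ∧
      (S.R X).eigenspace μ ≠ ⊥ :=
  S.cycle h2 ι (q := 5) (by decide) h5 2 _ (swap 1 3 * swap 1 4 * swap 1 2 * swap 5 6) (swap 1 2 * swap 5 6)
    (ds 1 2 3 4) 0 1 2 3 (by decide) (by decide) (by decide) (by decide) (by decide) (by decide) (by decide)
    (by decide)

theorem three_package (h2 : (2 : F) ≠ 0) (h3 : ((3 : ℕ) : F) ≠ 0) (ι : Fin 9 ↪ Fin r) :
    ∃ X G μ, S.π X = via ι (tri 0 1 2) ∧ X ^ 3 = 1 ∧ S.R X ^ 2 * S.R G = S.R G * S.R X ∧ μ ≠ 1 ∧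
      (S.R X).eigenspace μ ≠ ⊥ :=
  S.cycle h2 ι (q := 3) (by decide) h3 2 _ (ds 1 2 3 4) 1 (tri 2 4 3) 0 2 1 4 (by decide) (by decide) (by decide)
    (by decide) (by decide) (by decide) (by decide) (by decide)

omit [IsAlgClosed F] in
theorem two_le_eig {X : Γ} {q : ℕ} (hq : Odd q) (hXq : X ^ q = 1) (h2 : (2 : F) ≠ 0) {μ : F}
    (hW : (S.R X).eigenspace μ ≠ ⊥) {a b c d : Fin r} (hab : a ≠ b) (hac : a ≠ c) (had : a ≠ d) (hbc : b ≠ c)
    (hbd : b ≠ d) (hcd : c ≠ d) (c1 : Commute (ds a b c d) (S.π X)) (c2 : Commute (ds a c b d) (S.π X)) :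
    2 ≤ finrank F ((S.R X).eigenspace μ) := by
  have hev := S.even_dim (W := (S.R X).eigenspace μ) h2 hab hac had hbc hbd hcd (fun y hy v hv =>
    S.eig_inv (S.lift_comm hq hXq (by rcases hy with e | e <;> rw [e] <;> assumption)) hv)
  have hpos : 0 < finrank F ((S.R X).eigenspace μ) :=
    Nat.pos_of_ne_zero fun e => hW (Submodule.finrank_eq_zero.1 e)
  obtain ⟨k, hk⟩ := hev
  omega

end Spin

open Spin

variable [FiniteDimensional F V] [IsAlgClosed F] [Nontrivial V]

theorem spin_nine (S : Spin 9 Γ F V) (h2 : (2 : F) ≠ 0) : 8 ≤ finrank F V := by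
  by_cases h5 : ((5 : ℕ) : F) = 0
  · have h3 : ((3 : ℕ) : F) ≠ 0 := fun e => h2 (by push_cast at e h5; linear_combination h5 - e)
    obtain ⟨X, G, μ, hX, hXq, hG, hμ, hne⟩ := S.three_package h2 h3 (Function.Embedding.refl _)
    rw [via_refl] at hX
    set W := (S.R X).eigenspace μ with hWdef
    have hle : 2 ≤ finrank F W := S.two_le_eig (q := 3) (by decide) hXq h2 hne (a := 3) (b := 4) (c := 5) (d := 6) (by decide) (by decide)
      (by decide) (by decide) (by decide) (by decide) (by rw [hX]; show _ * _ = _ * _; decide)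
      (by rw [hX]; show _ * _ = _ * _; decide)
    have hev := S.even_dim (W := W) h2 (a := 3) (b := 4) (c := 5) (d := 6) (by decide) (by decide) (by decide)
      (by decide) (by decide) (by decide) (fun y hy v hv => S.eig_inv (S.lift_comm (q := 3) (by decide) hXq
        (by rcases hy with e | e <;> rw [e, hX] <;> (show _ * _ = _ * _; decide))) hv)
    have hinv : ∀ y, Commute (S.π y) (tri 0 1 2) → ∀ v ∈ W, S.R y v ∈ W := fun y hy v hv =>
      S.eig_inv (S.lift_comm (q := 3) (by decide) hXq (hX ▸ hy)) hv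
    suffices h4 : 4 ≤ finrank F W by
      have := eigen_bound (G := S.R G) (m := 2) (m' := 2) (q := 3) (by rw [← map_pow, hXq, map_one]) hG
        (S.R_injective G) (by decide) (by decide) Nat.prime_three hμ h4 (by omega)
      omega
    by_contra hlt
    have hd2 : finrank F W = 2 := by obtain ⟨k, hk⟩ := hev; omega
    obtain ⟨Y1, hY1, hY1q⟩ := S.exists_odd (g := tri 3 4 5) (by decide) (q := 3) (by decide) (by decide)
    obtain ⟨Y2, hY2, hY2q⟩ := S.exists_odd (g := tri 6 7 8) (by decide) (q := 3) (by decide) (by decide)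
    obtain ⟨H, hH⟩ := S.exists_lift (g := ds 4 5 7 8) (by decide)
    have c1 : Commute (S.π Y1) (tri 0 1 2) := by rw [hY1]; show _ * _ = _ * _; decide
    have c2 : Commute (S.π Y2) (tri 0 1 2) := by rw [hY2]; show _ * _ = _ * _; decide
    have c3 : Commute (S.π H) (tri 0 1 2) := by rw [hH]; show _ * _ = _ * _; decide
    let Z : Module.End F W := (S.R Y1).restrict (hinv Y1 c1)
    have hZ3 : Z ^ 3 = 1 := LinearMap.ext fun v => Subtype.ext (by
      show S.R Y1 (S.R Y1 (S.R Y1 v.1)) = v.1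
      rw [← Module.End.mul_apply, ← Module.End.mul_apply, ← map_mul, ← map_mul,
        show Y1 * Y1 * Y1 = 1 by rw [← hY1q]; simp [pow_succ], map_one, Module.End.one_apply])
    by_cases hZ : Z = 1
    · obtain ⟨g, hg⟩ := S.exists_lift (g := tri 5 7 6) (by decide)
      refine S.no_fix hne h2 (k := Y1) (h := g) (fun v hv => ?_)
        (hinv g⁻¹ (by rw [map_inv, hg]; show _ * _ = _ * _; decide)) (a := 3) (b := 5) (c := 4) (d := 7)
        (by decide) (by decide) (by decide) (by decide) (by decide) (by decide) (by rw [hY1, hg]; decide)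
      exact congrArg Subtype.val (LinearMap.congr_fun hZ ⟨v, hv⟩)
    obtain ⟨c, hc, ⟨v, hv⟩, hv0, hvc⟩ := exists_eigen_ne_one h3 hZ3 hZ
    have hv0' : v ≠ 0 := fun e => hv0 (Subtype.ext e)
    have hvc' : S.R Y1 v = c • v := congrArg Subtype.val hvc
    have hc3 : c ^ 3 = 1 := eigen_root hZ3 hv0 hvc
    have hc0 : c ^ 2 + c + 1 = 0 := by
      have : (c - 1) * (c ^ 2 + c + 1) = 0 := by linear_combination hc3
      exact (mul_eq_zero.1 this).resolve_left (sub_ne_zero.2 hc)
    have hcc : c ^ 2 ≠ c := fun e => hc (by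
      have h0 : c ≠ 0 := fun e0 => by rw [e0] at hc3; norm_num at hc3
      rw [pow_two] at e
      exact (mul_eq_left₀ h0).1 e)
    set u := S.R H v with hudef
    have huc : S.R Y1 u = c ^ 2 • u := eig_move (m := 2) (q := 3) (by rw [← map_pow, hY1q, map_one])
      (S.R_eq (S.lift_conj (by decide) hY1q 2 (by rw [hY1, hH]; decide))) (by decide) hvc'
    have hu0 : u ≠ 0 := fun e => hv0' (S.R_injective H (by rw [map_zero]; exact e))
    have hu : u ∈ W := hinv H c3 v hv
    have hli : LinearIndependent F ![(⟨v, hv⟩ : W), ⟨u, hu⟩] := by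
      refine linearIndependent_of_separated (fun _ : Unit => Z) (fun i _ => ![c, c ^ 2] i) _ (fun i => ?_) ?_ ?_
      · fin_cases i
        · exact hv0
        · exact fun e => hu0 (congrArg Subtype.val e)
      · intro i _
        fin_cases i
        · exact hvc
        · exact Subtype.ext huc
      · intro i j e
        have := congrFun e ()
        fin_cases i <;> fin_cases j <;> simp_all [eq_comm]
    have hspan : ∀ x ∈ W, ∃ α β : F, x = α • v + β • u := by
      intro x hx
      have htop := hli.span_eq_top_of_card_eq_finrank (by rw [Fintype.card_fin, hd2])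
      have hx' : (⟨x, hx⟩ : W) ∈ Submodule.span F (Set.range ![(⟨v, hv⟩ : W), ⟨u, hu⟩]) := by
        rw [htop]; exact Submodule.mem_top
      obtain ⟨f, hf⟩ := (Submodule.mem_span_range_iff_exists_fun F).1 hx'
      refine ⟨f 0, f 1, ?_⟩
      simpa [Fin.sum_univ_two] using (congrArg Subtype.val hf).symm
    obtain ⟨α, β, e⟩ := hspan _ (hinv Y2 c2 v hv)
    have hcom : Commute (S.R Y1) (S.R Y2) := by
      refine Commute.map ?_ S.R
      exact (S.lift_comm (q := 3) (by decide) hY1q (by rw [hY1, hY2]; show _ * _ = _ * _; decide)).symm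
    have hβ : β = 0 := by
      have h1 := LinearMap.congr_fun hcom.eq v
      simp only [Module.End.mul_apply, hvc', e, map_add, map_smul, huc, smul_smul] at h1
      have h' : (β * c ^ 2 - c * β) • u = 0 := by
        rw [sub_smul, sub_eq_zero]
        refine add_left_cancel (a := (α * c) • v) ?_
        rw [h1, smul_add, smul_smul, smul_smul, mul_comm α c]
      rcases smul_eq_zero.1 h' with h' | h'
      · rcases mul_eq_zero.1 (show β * (c ^ 2 - c) = 0 by linear_combination h') with h'' | h''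
        · exact h''
        · exact absurd (sub_eq_zero.1 h'') hcc
      · exact absurd h' hu0
    rw [hβ, zero_smul, add_zero] at e
    have hα : α ^ 3 = 1 := eigen_root (by rw [← map_pow, hY2q, map_one]) hv0' e
    have heu : S.R Y2 u = α ^ 2 • u := eig_move (m := 2) (q := 3) (by rw [← map_pow, hY2q, map_one])
      (S.R_eq (S.lift_conj (by decide) hY2q 2 (by rw [hY2, hH]; decide))) (by decide) e
    -- an element fixing the plane
    have hfix : ∀ j : ℕ, α * c ^ j = 1 → ∀ x ∈ W, S.R (Y2 * Y1 ^ j) x = x := by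
      intro j hj x hx
      have hp : ∀ (w : V) (ν : F), S.R Y1 w = ν • w → ∀ k : ℕ, (S.R Y1 ^ k) w = ν ^ k • w := by
        intro w ν hw k
        induction k with
        | zero => simp
        | succ k ih => rw [pow_succ', Module.End.mul_apply, ih, map_smul, hw, smul_smul, pow_succ]
      obtain ⟨a, b, rfl⟩ := hspan x hx
      rw [map_mul, map_pow, Module.End.mul_apply]
      simp only [map_add, map_smul, hp v c hvc' j, hp u _ huc j, e, heu, smul_smul]
      rw [mul_assoc a, mul_assoc b, mul_comm (c ^ j) α, hj, ← pow_mul, mul_comm 2 j, pow_mul, mul_comm ((c ^ j) ^ 2),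
        ← mul_pow, hj, one_pow, mul_one, mul_one]
    have key : α = 1 ∨ α = c ∨ α = c ^ 2 := by
      have : (α - 1) * ((α - c) * (α - c ^ 2)) = 0 := by
        linear_combination hα + (α - α ^ 2) * hc0 + (α - 1) * hc3
      rcases mul_eq_zero.1 this with h | h
      · exact Or.inl (sub_eq_zero.1 h)
      · rcases mul_eq_zero.1 h with h | h
        · exact Or.inr (Or.inl (sub_eq_zero.1 h))
        · exact Or.inr (Or.inr (sub_eq_zero.1 h))
    rcases key with rfl | rfl | rfl
    · obtain ⟨g, hg⟩ := S.exists_lift (g := tri 4 5 6) (by decide)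
      exact S.no_fix hne h2 (hfix 0 (by simp)) (hinv g⁻¹ (by rw [map_inv, hg]; show _ * _ = _ * _; decide))
        (a := 4) (b := 8) (c := 6) (d := 7) (by decide) (by decide) (by decide) (by decide) (by decide) (by decide)
        (by rw [map_mul, map_pow, hY2, hY1, hg]; decide)
    · obtain ⟨g, hg⟩ := S.exists_lift (g := ds 4 6 5 7) (by decide)
      exact S.no_fix hne h2 (hfix 2 (by rw [← pow_succ', hc3])) (hinv g⁻¹ (by rw [map_inv, hg]; show _ * _ = _ * _; decide))
        (a := 3) (b := 8) (c := 5) (d := 6) (by decide) (by decide) (by decide) (by decide) (by decide) (by decide)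
        (by rw [map_mul, map_pow, hY2, hY1, hg]; decide)
    · obtain ⟨g, hg⟩ := S.exists_lift (g := ds 4 6 5 8) (by decide)
      exact S.no_fix hne h2 (hfix 1 (by rw [pow_one, ← pow_succ, hc3])) (hinv g⁻¹ (by rw [map_inv, hg]; show _ * _ = _ * _; decide))
        (a := 3) (b := 7) (c := 4) (d := 8) (by decide) (by decide) (by decide) (by decide) (by decide) (by decide)
        (by rw [map_mul, map_pow, hY2, hY1, hg]; decide)
  · obtain ⟨X, G, μ, hX, hXq, hG, hμ, hne⟩ := S.five_package h2 h5 (Function.Embedding.refl _)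
    rw [via_refl] at hX
    have hle := S.two_le_eig (q := 5) (by decide) hXq h2 hne (a := 5) (b := 6) (c := 7) (d := 8) (by decide) (by decide)
      (by decide) (by decide) (by decide) (by decide) (by rw [hX]; show _ * _ = _ * _; decide)
      (by rw [hX]; show _ * _ = _ * _; decide)
    have := eigen_bound (G := S.R G) (m := 2) (m' := 3) (q := 5) (by rw [← map_pow, hXq, map_one]) hG
      (S.R_injective G) (by decide) (by decide) (by decide) hμ hle (by omega)
    omega

/-- Moves of a pair of exponents. -/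
def fA (p : Fin 5 × Fin 5) : Fin 5 × Fin 5 := (3 * p.1, 3 * p.2)
/-- Moves of a pair of exponents. -/
def fB (p : Fin 5 × Fin 5) : Fin 5 × Fin 5 := (p.1, 4 * p.2)
/-- Moves of a pair of exponents. -/
def fS (p : Fin 5 × Fin 5) : Fin 5 × Fin 5 := (p.2, 3 * p.1)

theorem moves_transitive : ∀ a : Fin 5, a ≠ 0 → ∀ i j : Fin 5, i ≠ 0 → j ≠ 0 → ∃ k1 : Fin 4, ∃ k2 k3 : Fin 2,
    (i, j) = fA^[k1.val] (fB^[k2.val] (fS^[k3.val] (1, a))) := by decide

theorem spin_ten_sixteen (S : Spin 10 Γ F V) (h2 : (2 : F) ≠ 0) (h5 : ((5 : ℕ) : F) ≠ 0) :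
    16 ≤ finrank F V := by
  classical
  obtain ⟨X1, G0, μ, hX1, hX1q, hG0, hμ, hne⟩ := S.five_package h2 h5 Fin.castSuccEmb
  replace hX1 : S.π X1 = tri 0 3 4 * tri 0 1 2 := by rw [hX1]; decide
  obtain ⟨X2, hX2, hX2q⟩ := S.exists_odd (g := tri 5 8 9 * tri 5 6 7) (by decide) (q := 5) (by decide) (by decide)
  set W := (S.R X1).eigenspace μ with hWdef
  have hinv : ∀ y, Commute (S.π y) (tri 0 3 4 * tri 0 1 2) → ∀ v ∈ W, S.R y v ∈ W := fun y hy v hv =>
    S.eig_inv (S.lift_comm (q := 5) (by decide) hX1q (hX1 ▸ hy)) hv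
  have c2 : Commute (S.π X2) (tri 0 3 4 * tri 0 1 2) := by rw [hX2]; show _ * _ = _ * _; decide
  let Z : Module.End F W := (S.R X2).restrict (hinv X2 c2)
  have hZpow : ∀ (k : ℕ) (v : W), ((Z ^ k) v).1 = (S.R X2 ^ k) v.1 := by
    intro k v
    induction k with
    | zero => simp
    | succ k ih => rw [pow_succ', pow_succ', Module.End.mul_apply, Module.End.mul_apply, ← ih]; rfl
  have hZ5 : Z ^ 5 = 1 := LinearMap.ext fun v => Subtype.ext (by
    rw [hZpow, ← map_pow, hX2q, map_one]; rfl)
  have hZ : Z ≠ 1 := by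
    intro e
    obtain ⟨H, hH⟩ := S.exists_lift (g := tri 7 8 9) (by decide)
    obtain ⟨g, hg⟩ := S.exists_lift (g := tri 6 7 9) (by decide)
    have hfix : ∀ v ∈ W, S.R X2 v = v := fun v hv => congrArg Subtype.val (LinearMap.congr_fun e ⟨v, hv⟩)
    have hfix' : ∀ v ∈ W, S.R X2⁻¹ v = v := fun v hv => by
      conv_lhs => rw [← hfix v hv]
      rw [← Module.End.mul_apply, ← map_mul, inv_mul_cancel, map_one, Module.End.one_apply]
    refine S.no_fix hne h2 (k := X2 * (H * X2⁻¹ * H⁻¹)) (fun v hv => ?_)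
      (hinv g⁻¹ (by rw [map_inv, hg]; show _ * _ = _ * _; decide)) (a := 5) (b := 7) (c := 8) (d := 9)
      (by decide) (by decide) (by decide) (by decide) (by decide) (by decide) (by simp only [map_mul, map_inv, hX2, hH, hg]; decide)
    have hHv : S.R H⁻¹ v ∈ W := hinv _ (by rw [map_inv, hH]; show _ * _ = _ * _; decide) v hv
    rw [map_mul, map_mul, map_mul, Module.End.mul_apply, Module.End.mul_apply, Module.End.mul_apply,
      hfix' _ hHv, ← Module.End.mul_apply (S.R H), ← map_mul, mul_inv_cancel, map_one, Module.End.one_apply,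
      hfix v hv]
  obtain ⟨ν, hν, ⟨v, hv⟩, hv0, hvν⟩ := exists_eigen_ne_one h5 hZ5 hZ
  have hv0' : v ≠ 0 := fun e => hv0 (Subtype.ext e)
  have hvν' : S.R X2 v = ν • v := congrArg Subtype.val hvν
  have hvμ : S.R X1 v = μ • v := Module.End.mem_eigenspace_iff.1 hv
  have hμ5 : μ ^ 5 = 1 := eigen_root (by rw [← map_pow, hX1q, map_one]) hv0' hvμ
  have hord : orderOf μ = 5 := orderOf_eq_prime (hp := ⟨by decide⟩) hμ5 hμ
  have hprim : IsPrimitiveRoot μ 5 := hord ▸ IsPrimitiveRoot.orderOf μ
  obtain ⟨a, ha, hνa⟩ := hprim.eq_pow_of_pow_eq_one (eigen_root hZ5 hv0 hvν)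
  have hpow : ∀ k : ℕ, μ ^ (k % 5) = μ ^ k := fun k => by rw [← hord, pow_mod_orderOf]
  let P : Fin 5 × Fin 5 → Prop := fun p => ∃ v : V, v ≠ 0 ∧ S.R X1 v = μ ^ p.1.val • v ∧ S.R X2 v = μ ^ p.2.val • v
  have e1 : S.R X1 ^ 5 = 1 := by rw [← map_pow, hX1q, map_one]
  have e2 : S.R X2 ^ 5 = 1 := by rw [← map_pow, hX2q, map_one]
  have nz : ∀ y (v : V), v ≠ 0 → S.R y v ≠ 0 := fun y v hv e => hv (S.R_injective y (by rw [map_zero]; exact e))
  have hA : ∀ p, P p → P (fA p) := by
    rintro ⟨i, j⟩ ⟨v, hv, hi, hj⟩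
    obtain ⟨G, hG⟩ := S.exists_lift (g := swap 1 3 * swap 1 4 * swap 1 2 * (swap 6 8 * swap 6 9 * swap 6 7)) (by decide)
    refine ⟨S.R G v, nz G v hv, ?_, ?_⟩
    · rw [eig_move (m := 2) (m' := 3) e1 (S.R_eq (S.lift_conj (by decide) hX1q 2 (by rw [hX1, hG]; decide)))
        (by decide) hi, ← pow_mul, show ((fA (i, j)).1).val = 3 * i.val % 5 from Fin.val_mul 3 i, hpow, mul_comm]
    · rw [eig_move (m := 2) (m' := 3) e2 (S.R_eq (S.lift_conj (by decide) hX2q 2 (by rw [hX2, hG]; decide)))
        (by decide) hj, ← pow_mul, show ((fA (i, j)).2).val = 3 * j.val % 5 from Fin.val_mul 3 j, hpow, mul_comm]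
  have hB : ∀ p, P p → P (fB p) := by
    rintro ⟨i, j⟩ ⟨v, hv, hi, hj⟩
    obtain ⟨G, hG⟩ := S.exists_lift (g := ds 6 9 7 8) (by decide)
    refine ⟨S.R G v, nz G v hv, ?_, ?_⟩
    · rw [eig_move (m := 1) (m' := 1) e1 (S.R_eq (S.lift_conj (by decide) hX1q 1 (by rw [hX1, hG]; decide)))
        (by decide) hi, pow_one]
      rfl
    · rw [eig_move (m := 4) (m' := 4) e2 (S.R_eq (S.lift_conj (by decide) hX2q 4 (by rw [hX2, hG]; decide)))
        (by decide) hj, ← pow_mul, show ((fB (i, j)).2).val = 4 * j.val % 5 from Fin.val_mul 4 j, hpow, mul_comm]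
  have hS : ∀ p, P p → P (fS p) := by
    rintro ⟨i, j⟩ ⟨v, hv, hi, hj⟩
    obtain ⟨G, hG⟩ := S.exists_lift
      (g := swap 0 5 * swap 1 6 * swap 2 7 * swap 3 8 * swap 4 9 * (swap 1 3 * swap 1 4 * swap 1 2)) (by decide)
    -- the swap of the blocks
    have k1 : X2 ^ 2 * G = G * X1 := by
      have h : G * X1 * G⁻¹ = X2 ^ 2 := S.odd_eq (q := 5) (by decide) (by rw [conj_pow, hX1q, mul_one, mul_inv_cancel])
        (by rw [← pow_mul, mul_comm, pow_mul, hX2q, one_pow])
        (by simp only [map_mul, map_inv, map_pow, hX1, hX2, hG]; decide)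
      rw [← h, inv_mul_cancel_right]
    have k2 : X1 ^ 1 * G = G * X2 := by
      have h : G * X2 * G⁻¹ = X1 := S.odd_eq (q := 5) (by decide) (by rw [conj_pow, hX2q, mul_one, mul_inv_cancel])
        hX1q (by simp only [map_mul, map_inv, hX1, hX2, hG]; decide)
      rw [pow_one, ← h, inv_mul_cancel_right]
    refine ⟨S.R G v, nz G v hv, ?_, ?_⟩
    · rw [eig_move (m := 1) (m' := 1) e1 (S.R_eq k2) (by decide) hj, pow_one]
      rfl
    · rw [eig_move (m := 2) (m' := 3) e2 (S.R_eq k1) (by decide) hi, ← pow_mul,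
        show ((fS (i, j)).2).val = 3 * i.val % 5 from Fin.val_mul 3 i, hpow, mul_comm]
  have hiter : ∀ f : Fin 5 × Fin 5 → Fin 5 × Fin 5, (∀ p, P p → P (f p)) → ∀ k p, P p → P (f^[k] p) := by
    intro f hf k
    induction k with
    | zero => exact fun p h => h
    | succ k ih => exact fun p h => by rw [Function.iterate_succ_apply']; exact hf _ (ih p h)
  have ha0 : a ≠ 0 := fun e => hν (by rw [← hνa, e, pow_zero])
  have hP : P (1, ⟨a, ha⟩) := ⟨v, hv0', by simpa using hvμ, by rw [hvν', ← hνa]⟩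
  have hall : ∀ i j : Fin 4, P (i.succ, j.succ) := by
    intro i j
    obtain ⟨k1, k2, k3, e⟩ := moves_transitive ⟨a, ha⟩ (fun e => ha0 (congrArg Fin.val e)) i.succ j.succ
      (Fin.succ_ne_zero i) (Fin.succ_ne_zero j)
    rw [e]
    exact hiter fA hA _ _ (hiter fB hB _ _ (hiter fS hS _ _ hP))
  choose w hw0 hw1 hw2 using hall
  have hind : LinearIndependent F (fun p : Fin 4 × Fin 4 => w p.1 p.2) := by
    refine linearIndependent_of_separated (fun l : Bool => if l then S.R X1 else S.R X2)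
      (fun p l => if l then μ ^ p.1.succ.val else μ ^ p.2.succ.val) _ (fun p => hw0 _ _) (fun p l => ?_) ?_
    · cases l
      · simpa using hw2 p.1 p.2
      · simpa using hw1 p.1 p.2
    · intro p p' e
      have hinj : ∀ i i' : Fin 5, μ ^ i.val = μ ^ i'.val → i = i' := fun i i' h =>
        Fin.ext (pow_injOn_Iio_orderOf (Set.mem_Iio.2 (by rw [hord]; exact i.2)) (Set.mem_Iio.2 (by rw [hord]; exact i'.2)) h)
      refine Prod.ext (Fin.succ_injective _ (hinj _ _ ?_)) (Fin.succ_injective _ (hinj _ _ ?_))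
      · simpa using congrFun e true
      · simpa using congrFun e false
  simpa using hind.fintype_card_le_finrank

theorem spin_ten (S : Spin 10 Γ F V) (h2 : (2 : F) ≠ 0) : 8 ≤ finrank F V := by
  have : Nontrivial (⊤ : Submodule F V) := Submodule.nontrivial_iff_ne_bot.2 top_ne_bot
  have := spin_nine (S.restrict Fin.castSuccEmb (⊤ : Submodule F V) (fun _ _ _ _ _ => Submodule.mem_top)) h2
  rwa [finrank_top] at this

theorem spin_eleven (S : Spin 11 Γ F V) (h2 : (2 : F) ≠ 0) : 12 ≤ finrank F V := by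
  by_cases h5 : ((5 : ℕ) : F) = 0
  · have h7 : ((7 : ℕ) : F) ≠ 0 := fun e => h2 (by push_cast at e h5; linear_combination e - h5)
    obtain ⟨X, G, μ, hX, hXq, hG, hμ, hne⟩ := S.cycle h2 (Function.Embedding.refl _) (q := 7) (by decide) h7 3
      (tri 0 5 6 * tri 0 3 4 * tri 0 1 2) (swap 1 5 * swap 1 4 * swap 1 6 * swap 1 2 * swap 1 3 * swap 7 8) 1
      (swap 3 6 * swap 4 5) 0 2 1 3 (by decide) (by decide) (by decide) (by decide) (by decide) (by decide)
      (by decide) (by decide)
    rw [via_refl] at hX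
    have hle := S.two_le_eig (q := 7) (by decide) hXq h2 hne (a := 7) (b := 8) (c := 9) (d := 10) (by decide)
      (by decide) (by decide) (by decide) (by decide) (by decide) (by rw [hX]; show _ * _ = _ * _; decide)
      (by rw [hX]; show _ * _ = _ * _; decide)
    have := eigen_bound (G := S.R G) (m := 3) (m' := 5) (q := 7) (by rw [← map_pow, hXq, map_one]) hG
      (S.R_injective G) (by decide) (by decide) (by decide) hμ hle (by omega)
    omega
  · have : Nontrivial (⊤ : Submodule F V) := Submodule.nontrivial_iff_ne_bot.2 top_ne_bot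
    have := spin_ten_sixteen (S.restrict Fin.castSuccEmb (⊤ : Submodule F V) (fun _ _ _ _ _ => Submodule.mem_top)) h2 h5
    rw [finrank_top] at this
    omega

/-- The bound for every faithful representation of a double cover of a given degree. -/
def SpinBounded (s : ℕ) (F : Type u) [Field F] : Prop :=
  ∀ (Γ : Type w) [Group Γ] (V : Type v) [AddCommGroup V] [Module F V] [FiniteDimensional F V] [Nontrivial V],
    Spin s Γ F V → LB F s (finrank F V)

theorem spin_step {k q m m' : ℕ} {r : ℕ} (S : Spin r Γ F V) (hq : q.Prime) (hq2 : Odd q) (hr : 9 ≤ r) (hk : k < r)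
    (hm : m * m' % q = 1) (hprim : Function.Injective fun k : Fin (q - 1) => m' ^ k.val % q)
    (IH : SpinBounded.{u, v, w} (r - k) F) (x : Perm (Fin 9)) (hx : ∀ i : Fin 9, k ≤ i.val → x i = i)
    (hpk : ∃ X G μ, S.π X = via (Fin.castLEEmb hr) x ∧ X ^ q = 1 ∧ S.R X ^ m * S.R G = S.R G * S.R X ∧ μ ≠ 1 ∧
      (S.R X).eigenspace μ ≠ ⊥) : ∃ b, LB F (r - k) b ∧ (q - 1) * b ≤ finrank F V := by
  obtain ⟨X, G, μ, hX, hXq, hG, hμ, hne⟩ := hpk
  let ι : Fin (r - k) ↪ Fin r := ⟨fun i => ⟨i.val + k, by omega⟩, fun i j e => Fin.ext (by simpa using e)⟩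
  have hfix : ∀ y, S.π X (ι y) = ι y := by
    intro y
    rw [hX]
    by_cases hy : ι y ∈ Set.range (Fin.castLEEmb hr)
    · obtain ⟨i, hi⟩ := hy
      rw [← hi, via_apply_image, hx i]
      have h' : i.val = y.val + k := congrArg Fin.val hi
      omega
    · exact Perm.viaFintypeEmbedding_apply_notMem_range _ _ hy
  have hinv := S.eig_invariant ι hq2 hXq hfix μ
  have : Nontrivial ((S.R X).eigenspace μ) := Submodule.nontrivial_iff_ne_bot.2 hne
  have hb := IH _ _ (S.restrict ι _ hinv)
  exact ⟨_, hb, eigen_bound (by rw [← map_pow, hXq, map_one]) hG (S.R_injective G) hm hprim hq hμ le_rfl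
    (Nat.pos_of_ne_zero fun e => hne (Submodule.finrank_eq_zero.1 e))⟩

theorem spin_small (S : Spin 12 Γ F V) (h2 : (2 : F) ≠ 0) : 12 ≤ finrank F V := by
  have : Nontrivial (⊤ : Submodule F V) := Submodule.nontrivial_iff_ne_bot.2 top_ne_bot
  have := spin_eleven (S.restrict Fin.castSuccEmb (⊤ : Submodule F V) (fun _ _ _ _ _ => Submodule.mem_top)) h2
  rwa [finrank_top] at this

theorem spin_bound (h2 : (2 : F) ≠ 0) (r : ℕ) : 9 ≤ r → SpinBounded.{u, v, w} r F := by
  induction r using Nat.strong_induction_on with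
  | _ r IH =>
    intro hr Γ' _ W _ _ _ _ S
    by_cases h14 : 14 ≤ r
    · by_cases h3 : ((3 : ℕ) : F) = 0
      · have h5 : ((5 : ℕ) : F) ≠ 0 := fun e => h2 (by push_cast at e h3; linear_combination e - h3)
        obtain ⟨b, hb, hle⟩ := spin_step (k := 5) (q := 5) (m := 2) (m' := 3) S (by decide) (by decide) hr (by omega)
          (by decide) (by decide) (IH (r - 5) (by omega) (by omega)) (tri 0 3 4 * tri 0 1 2) (by decide)
          (S.five_package h2 h5 _)
        have := hb.1
        exact LB.of_le (by omega)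
      · obtain ⟨b, hb, hle⟩ := spin_step (k := 3) (q := 3) (m := 2) (m' := 2) S Nat.prime_three (by decide) hr (by omega)
          (by decide) (by decide) (IH (r - 3) (by omega) (by omega)) (tri 0 1 2) (by decide)
          (S.three_package h2 h3 _)
        have := hb.1
        exact LB.of_le (by omega)
    · interval_cases r
      · have := spin_nine S h2
        exact LB.of_le (by omega)
      · have h8 := spin_ten S h2
        by_cases h5 : ((5 : ℕ) : F) = 0
        · refine ⟨by omega, fun _ => ?_⟩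
          rw [show ((10 : ℕ) : F) = 2 * ((5 : ℕ) : F) by norm_num, h5, mul_zero]
        · have := spin_ten_sixteen S h2 h5
          exact LB.of_le (by omega)
      · have := spin_eleven S h2
        exact LB.of_le (by omega)
      · have := spin_small S h2
        exact LB.of_le (by omega)
      · have : Nontrivial (⊤ : Submodule F W) := Submodule.nontrivial_iff_ne_bot.2 top_ne_bot
        have := spin_small (S.restrict Fin.castSuccEmb (⊤ : Submodule F W) (fun _ _ _ _ _ => Submodule.mem_top)) h2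
        rw [finrank_top] at this
        exact LB.of_le (by omega)

end Cfsg.Agent.Lib.AltDeg
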