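import Cfsg.Agent.Lib.AltDeg.LinearBound
import Cfsg.Agent.Lib.AltDeg.SpinBound

/-!
# Reduction to representations of the alternating group or of its double cover
-/

set_option autoImplicit false

namespace Cfsg.Agent.Lib.AltDeg

open Equiv Equiv.Perm Cfsg.Agent.Lib.SchurAlt Module

universe w

/-- The bound in a given dimension, for groups mapping onto the alternating group. -/
def DegBound (r n : ℕ) : Prop :=
  ∀ (E : Type) [Field E] [IsAlgClosed E] (V : Type) [AddCommGroup V] [Module E V] [FiniteDimensional E V],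
    finrank E V = n → ∀ (Γ : Type w) [Group Γ] [Finite Γ] (π : Γ →* Perm (Fin r)),
    π.range = alternatingGroup (Fin r) → ∀ R : Γ →* Module.End E V, R.ker ≤ π.ker → LB E r n

theorem alt_card_gt {r n : ℕ} (hr : 9 ≤ r) (hn : n + 2 ≤ r) :
    n.factorial < Nat.card (alternatingGroup (Fin r)) := by
  have : Nontrivial (Fin r) := Fin.nontrivial_iff_two_le.2 (by omega)
  have h := two_mul_nat_card_alternatingGroup (α := Fin r)
  rw [Nat.card_perm, Nat.card_fin] at h
  obtain ⟨k, rfl⟩ : ∃ k, r = k + 2 := ⟨r - 2, by omega⟩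
  have h1 : n.factorial ≤ k.factorial := Nat.factorial_le (by omega)
  have h2 : 0 < k.factorial := Nat.factorial_pos k
  simp only [Nat.factorial_succ] at h
  have h3 : 6 * k.factorial ≤ (k + 1 + 1) * ((k + 1) * k.factorial) := by
    rw [← mul_assoc]; exact Nat.mul_le_mul_right _ (by nlinarith)
  omega

theorem alt_card_big {r : ℕ} (hr : 9 ≤ r) : 65536 < Nat.card (alternatingGroup (Fin r)) := by
  have : Nontrivial (Fin r) := Fin.nontrivial_iff_two_le.2 (by omega)
  have h := two_mul_nat_card_alternatingGroup (α := Fin r)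
  rw [Nat.card_perm, Nat.card_fin] at h
  have h1 : (9 : ℕ).factorial ≤ r.factorial := Nat.factorial_le hr
  rw [show (9 : ℕ).factorial = 362880 from rfl] at h1
  omega

theorem common_eigen {E : Type*} [Field E] [IsAlgClosed E] {V : Type*} [AddCommGroup V] [Module E V]
    [FiniteDimensional E V] {ι : Type*} (X : ι → Module.End E V) (hc : ∀ i j, Commute (X i) (X j)) (s : List ι) :
    ∀ W : Submodule E V, W ≠ ⊥ → (∀ i, ∀ v ∈ W, X i v ∈ W) → ∃ v ∈ W, v ≠ 0 ∧ ∀ i ∈ s, ∃ c : E, X i v = c • v := by
  induction s with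
  | nil =>
    intro W hW _
    obtain ⟨v, hv, hv0⟩ := Submodule.exists_mem_ne_zero_of_ne_bot hW
    exact ⟨v, hv, hv0, fun i hi => by simp at hi⟩
  | cons a s ih =>
    intro W hW hinv
    have : Nontrivial W := Submodule.nontrivial_iff_ne_bot.2 hW
    obtain ⟨c, hc'⟩ := Module.End.exists_eigenvalue ((X a).restrict (hinv a))
    obtain ⟨⟨w, hw⟩, hwe, hw0⟩ := hc'.exists_hasEigenvector
    rw [Module.End.mem_eigenspace_iff] at hwe
    have hwc : X a w = c • w := congrArg Subtype.val hwe
    obtain ⟨v, hv, hv0, hvs⟩ := ih (W ⊓ (X a).eigenspace c)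
      (fun e => hw0 (Subtype.ext (by
        have : w ∈ W ⊓ (X a).eigenspace c := ⟨hw, Module.End.mem_eigenspace_iff.2 hwc⟩
        rwa [e, Submodule.mem_bot] at this)))
      (fun i v hv => ⟨hinv i v hv.1, Module.End.mem_eigenspace_iff.2 (by
        rw [← Module.End.mul_apply, ← (hc i a).eq, Module.End.mul_apply, Module.End.mem_eigenspace_iff.1 hv.2,
          map_smul])⟩)
    refine ⟨v, hv.1, hv0, fun i hi => ?_⟩
    rcases List.mem_cons.1 hi with rfl | hi
    · exact ⟨c, Module.End.mem_eigenspace_iff.1 hv.2⟩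
    · exact hvs i hi

/-- Identities on four points. -/
theorem quad {r : ℕ} {k a c d : Fin r} (hka : k ≠ a) (hkc : k ≠ c) (hkd : k ≠ d) (hac : a ≠ c) (had : a ≠ d)
    (hcd : c ≠ d) : ds k a c d * ds k a c d = 1 ∧ tri k a c * tri k a d = ds k c a d ∧
      tri k a c * (tri k a d)⁻¹ = tri k d c := by
  let ι : Fin 4 ↪ Fin r := ⟨![k, a, c, d], fun i j hij => by fin_cases i <;> fin_cases j <;> simp_all⟩
  have e0 : ι 0 = k := rfl
  have e1 : ι 1 = a := rfl
  have e2 : ι 2 = c := rfl
  have e3 : ι 3 = d := rfl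
  have ht : ∀ x y z : Fin 4, x ≠ y → x ≠ z → y ≠ z → via ι (tri x y z) = tri (ι x) (ι y) (ι z) :=
    fun _ _ _ h1 h2 h3 => via_tri ι h1 h2 h3
  refine ⟨?_, ?_, ?_⟩
  · rw [← e0, ← e1, ← e2, ← e3, ← via_ds, ← map_mul, show ds (0 : Fin 4) 1 2 3 * ds 0 1 2 3 = 1 by decide, map_one]
  · rw [← e0, ← e1, ← e2, ← e3, ← ht 0 1 2 (by decide) (by decide) (by decide),
      ← ht 0 1 3 (by decide) (by decide) (by decide), ← via_ds, ← map_mul,
      show tri (0 : Fin 4) 1 2 * tri 0 1 3 = ds 0 2 1 3 by decide]
  · rw [← e0, ← e1, ← e2, ← e3, ← ht 0 1 2 (by decide) (by decide) (by decide),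
      ← ht 0 1 3 (by decide) (by decide) (by decide), ← ht 0 3 2 (by decide) (by decide) (by decide), ← map_inv,
      ← map_mul, show tri (0 : Fin 4) 1 2 * (tri 0 1 3)⁻¹ = tri 0 3 2 by decide]

variable {r : ℕ} {Γ : Type w} [Group Γ] [Finite Γ]

section Minimal

variable {π : Γ →* Perm (Fin r)} (hrange : π.range = alternatingGroup (Fin r))
  (hmin : ∀ M : Subgroup Γ, M.map π = alternatingGroup (Fin r) → M = ⊤) (hr : 9 ≤ r)

include hrange hmin hr

theorem normal_cases (N : Subgroup Γ) [N.Normal] : N ≤ π.ker ∨ N = ⊤ := by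
  have : IsSimpleGroup (alternatingGroup (Fin r)) := alternatingGroup.isSimpleGroup (by rw [Nat.card_fin]; omega)
  let π' : Γ →* alternatingGroup (Fin r) := π.codRestrict _ fun x => hrange ▸ ⟨x, rfl⟩
  have hsurj : Function.Surjective π' := fun g => by
    obtain ⟨x, hx⟩ := exists_preimage hrange g.2
    exact ⟨x, Subtype.ext hx⟩
  haveI : (N.map π').Normal := Subgroup.Normal.map ‹_› π' hsurj
  rcases IsSimpleGroup.eq_bot_or_eq_top_of_normal _ ‹(N.map π').Normal› with h | h
  · refine Or.inl fun x hx => ?_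
    have : π' x ∈ N.map π' := Subgroup.mem_map_of_mem _ hx
    rw [h, Subgroup.mem_bot] at this
    exact congrArg Subtype.val this
  · refine Or.inr (hmin N ?_)
    ext g
    constructor
    · rintro ⟨x, -, rfl⟩; exact hrange ▸ ⟨x, rfl⟩
    · intro hg
      obtain ⟨x, hx, e⟩ : (⟨g, hg⟩ : alternatingGroup (Fin r)) ∈ N.map π' := h ▸ Subgroup.mem_top _
      exact ⟨x, hx, congrArg Subtype.val e⟩

theorem perfect : commutator Γ = ⊤ := hmin _ (by
  rw [commutator_def, Subgroup.map_commutator, ← MonoidHom.range_eq_map, hrange]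
  exact commutator_alternatingGroup_eq_self (by rw [Nat.card_fin]; omega))

theorem ker_ne_top : π.ker ≠ ⊤ := fun h => by
  have h1 := alt_card_big hr
  have : Subsingleton (alternatingGroup (Fin r)) := ⟨fun a b => by
    obtain ⟨x, hx⟩ := exists_preimage hrange a.2
    obtain ⟨y, hy⟩ := exists_preimage hrange b.2
    have hx1 : π x = 1 := MonoidHom.mem_ker.1 (h ▸ Subgroup.mem_top x)
    have hy1 : π y = 1 := MonoidHom.mem_ker.1 (h ▸ Subgroup.mem_top y)
    exact Subtype.ext (by rw [← hx, ← hy, hx1, hy1])⟩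
  rw [Nat.card_unique] at h1
  omega

theorem card_le_of_ker_le {X : Type*} [Finite X] (f : Γ → X)
    (hf : ∀ a b, f a = f b → π a = π b) : Nat.card (alternatingGroup (Fin r)) ≤ Nat.card X := by
  choose s hs using fun g : alternatingGroup (Fin r) => exists_preimage hrange g.2
  refine Nat.card_le_card_of_injective (fun g => f (s g)) fun a b e => Subtype.ext ?_
  rw [← hs a, ← hs b]
  exact hf _ _ e

theorem ker_solvable : Group.IsSolvable π.ker := by
  have hle : π.ker ≤ frattini Γ := by
    refine le_iInf fun M => le_iInf fun hM => ?_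
    by_contra h
    have htop : M ⊔ π.ker = ⊤ := hM.2 _ (by
      refine lt_of_le_of_ne le_sup_left fun e => h ?_
      rw [e]; exact le_sup_right)
    refine hM.1 (hmin M ?_)
    have := congrArg (Subgroup.map π) htop
    rwa [Subgroup.map_sup, (Subgroup.map_eq_bot_iff _).2 le_rfl, sup_bot_eq, ← MonoidHom.range_eq_map, hrange] at this
  have : Group.IsNilpotent (frattini Γ) := frattini_nilpotent
  exact Group.isSolvable_of_isSolvable_injective (Subgroup.inclusion_injective hle)

end Minimal

section Main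

variable {E : Type} [Field E] [IsAlgClosed E] {V : Type} [AddCommGroup V] [Module E V] [FiniteDimensional E V]
  {π : Γ →* Perm (Fin r)} (hrange : π.range = alternatingGroup (Fin r))
  (hmin : ∀ M : Subgroup Γ, M.map π = alternatingGroup (Fin r) → M = ⊤) (hr : 9 ≤ r)
  (R : Γ →* Module.End E V) (hinj : Function.Injective R)

include hrange hmin hr hinj

theorem irreducible {n : ℕ} (hn : finrank E V = n) (IH : ∀ m < n, DegBound.{w} r m) (hgoal : ¬ r ≤ n + 1)
    (W : Submodule E V) (hW : ∀ g, ∀ v ∈ W, R g v ∈ W) : W = ⊥ ∨ W = ⊤ := by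
  by_contra hc
  push Not at hc
  obtain ⟨hb, ht⟩ := hc
  let RW : Γ →* Module.End E W :=
    { toFun := fun g => (R g).restrict (hW g)
      map_one' := LinearMap.ext fun v => Subtype.ext (by simp)
      map_mul' := fun a b => LinearMap.ext fun v => Subtype.ext (by simp [map_mul]) }
  let RQ : Γ →* Module.End E (V ⧸ W) :=
    { toFun := fun g => W.mapQ W (R g) (fun v hv => hW g v hv)
      map_one' := by
        refine Submodule.linearMap_qext _ (LinearMap.ext fun v => ?_)
        simp
      map_mul' := fun a b => by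
        refine Submodule.linearMap_qext _ (LinearMap.ext fun v => ?_)
        simp [map_mul] }
  have hWlt : finrank E W < n := hn ▸ Submodule.finrank_lt ht
  have hQlt : finrank E (V ⧸ W) < n := by
    have h1 := Submodule.finrank_quotient_add_finrank W
    have h2 : 0 < finrank E W := Nat.pos_of_ne_zero fun e => hb (Submodule.finrank_eq_zero.1 e)
    omega
  rcases normal_cases hrange hmin hr RW.ker with h | h
  · have := (IH _ hWlt E W rfl Γ π hrange RW h).1
    omega
  rcases normal_cases hrange hmin hr RQ.ker with h' | h'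
  · have := (IH _ hQlt E (V ⧸ W) rfl Γ π hrange RQ h').1
    omega
  have hA : ∀ g, ∀ v ∈ W, R g v = v := fun g v hv => by
    have : RW g = 1 := MonoidHom.mem_ker.1 (h ▸ Subgroup.mem_top g)
    exact congrArg Subtype.val (LinearMap.congr_fun this ⟨v, hv⟩)
  have hB : ∀ g v, R g v - v ∈ W := fun g v => by
    have : RQ g = 1 := MonoidHom.mem_ker.1 (h' ▸ Subgroup.mem_top g)
    have := LinearMap.congr_fun this (Submodule.Quotient.mk v)
    exact (Submodule.Quotient.eq W).1 this
  have hcomm : ∀ a b : Γ, a * b = b * a := by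
    intro a b
    refine hinj (LinearMap.ext fun v => ?_)
    rw [map_mul, map_mul, Module.End.mul_apply, Module.End.mul_apply]
    have e1 := hA a _ (hB b v)
    have e2 := hA b _ (hB a v)
    rw [map_sub] at e1 e2
    rw [sub_eq_iff_eq_add] at e1 e2
    rw [e1, e2]
    abel
  have hp := perfect hrange hmin hr
  have hbot : commutator Γ = ⊥ := by
    rw [commutator_def, eq_bot_iff, Subgroup.commutator_le]
    intro a _ b _
    rw [Subgroup.mem_bot, commutatorElement_eq_one_iff_mul_comm]
    exact hcomm a b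
  exact ker_ne_top hrange hmin hr (eq_top_iff.2 (by rw [← hp, hbot]; exact bot_le))

theorem scalar {n : ℕ} (hn : finrank E V = n) [Nontrivial V] (hirr : ∀ W : Submodule E V, (∀ g, ∀ v ∈ W, R g v ∈ W) →
    W = ⊥ ∨ W = ⊤) (hgoal : ¬ r ≤ n + 1) (A : Subgroup Γ) [A.Normal] (hA : ∀ a ∈ A, ∀ b ∈ A, a * b = b * a)
    {a : Γ} (ha : a ∈ A) : ∃ c : E, R a = c • (1 : Module.End E V) := by
  classical
  have : Fintype A := Fintype.ofFinite _
  let X : A → Module.End E V := fun x => R x
  let Λ : Set (A → E) := {χ | ∃ v : V, v ≠ 0 ∧ ∀ x, X x v = χ x • v}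
  have hΛne : ∃ χ, χ ∈ Λ := by
    obtain ⟨v, -, hv0, hv⟩ := common_eigen X (fun i j => by
      show R _ * R _ = R _ * R _
      rw [← map_mul, ← map_mul, hA _ i.2 _ j.2]) (Finset.univ : Finset A).toList ⊤ top_ne_bot
      (fun _ _ _ => Submodule.mem_top)
    choose c hc using fun x => hv x (by simp)
    exact ⟨c, v, hv0, hc⟩
  have hbound : ∀ t : Finset (A → E), (∀ χ ∈ t, χ ∈ Λ) → t.card ≤ n := by
    intro t ht
    choose v hv0 hv using fun χ : t => ht χ.1 χ.2
    have := linearIndependent_of_separated X (fun χ : t => χ.1) v hv0 hv Subtype.val_injective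
    simpa [hn] using this.fintype_card_le_finrank
  have hfin : Λ.Finite := by
    by_contra hinf
    obtain ⟨t, ht, hcard⟩ := Set.Infinite.exists_subset_card_eq hinf (n + 1)
    have := hbound t (fun χ hχ => ht hχ)
    omega
  have : Finite Λ := hfin.to_subtype
  have hcard : Nat.card Λ ≤ n := by
    rw [Nat.card_coe_set_eq, Set.ncard_eq_toFinset_card _ hfin]
    exact hbound _ (fun χ hχ => hfin.mem_toFinset.1 hχ)
  let cj : Γ → A → A := fun g x => ⟨g⁻¹ * x * g, by
    have := (inferInstance : A.Normal).conj_mem x x.2 g⁻¹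
    rwa [inv_inv] at this⟩
  have hmove : ∀ g (χ : A → E), ∀ v : V, (∀ x, X x v = χ x • v) → ∀ x, X x (R g v) = χ (cj g x) • R g v := by
    intro g χ v hv x
    show R x (R g v) = _
    rw [← Module.End.mul_apply, ← map_mul, show (x : Γ) * g = g * (g⁻¹ * x * g) by group, map_mul,
      Module.End.mul_apply, show R (g⁻¹ * x * g) v = _ from hv (cj g x), map_smul]
  have hne : ∀ g (v : V), v ≠ 0 → R g v ≠ 0 := fun g v hv e => hv (by
    have := congrArg (R g⁻¹) e
    rwa [← Module.End.mul_apply, ← map_mul, inv_mul_cancel, map_one, map_zero] at this)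
  let act : Γ → Λ → Λ := fun g χ => ⟨fun x => χ.1 (cj g x), by
    obtain ⟨v, hv0, hv⟩ := χ.2
    exact ⟨R g v, hne g v hv0, hmove g _ v hv⟩⟩
  have act_one : ∀ χ, act 1 χ = χ := fun χ => Subtype.ext (funext fun x => congrArg χ.1 (Subtype.ext (by simp [cj])))
  have act_mul : ∀ g h χ, act (g * h) χ = act g (act h χ) := fun g h χ =>
    Subtype.ext (funext fun x => congrArg χ.1 (Subtype.ext (by simp [cj, mul_assoc])))
  let P : Γ →* Perm Λ := MonoidHom.mk' (fun g => ⟨act g, act g⁻¹,
      fun χ => by rw [← act_mul, inv_mul_cancel, act_one], fun χ => by rw [← act_mul, mul_inv_cancel, act_one]⟩)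
    (fun g h => Equiv.ext fun χ => act_mul g h χ)
  rcases normal_cases hrange hmin hr P.ker with h | h
  · exfalso
    have h1 := card_le_of_ker_le hrange hmin hr P (fun a b e => by
      have hk : a⁻¹ * b ∈ P.ker := by rw [MonoidHom.mem_ker, map_mul, map_inv, e, inv_mul_cancel]
      have := h hk
      rwa [MonoidHom.mem_ker, map_mul, map_inv, inv_mul_eq_one] at this)
    rw [Nat.card_perm] at h1
    have h2 : (Nat.card Λ).factorial ≤ n.factorial := Nat.factorial_le hcard
    have h3 := alt_card_gt hr (n := n) (by omega)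
    omega
  · obtain ⟨χ, hχ⟩ := hΛne
    let W : Submodule E V := ⨅ x : A, (X x).eigenspace (χ x)
    have hW : ∀ g, ∀ v ∈ W, R g v ∈ W := by
      intro g v hv
      simp only [W, Submodule.mem_iInf, Module.End.mem_eigenspace_iff] at hv ⊢
      intro x
      have hp : P g = 1 := MonoidHom.mem_ker.1 (h ▸ Subgroup.mem_top g)
      have e : χ (cj g x) = χ x := congrFun (congrArg Subtype.val (Equiv.congr_fun hp ⟨χ, hχ⟩)) x
      rw [hmove g χ v hv x, e]
    obtain ⟨v, hv0, hv⟩ := hχ
    have htop : W = ⊤ := (hirr W hW).resolve_left fun e => hv0 (by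
      have : v ∈ W := by simp only [W, Submodule.mem_iInf, Module.End.mem_eigenspace_iff]; exact hv
      rwa [e, Submodule.mem_bot] at this)
    refine ⟨χ ⟨a, ha⟩, LinearMap.ext fun u => ?_⟩
    have hu : u ∈ W := by rw [htop]; exact Submodule.mem_top
    simp only [W, Submodule.mem_iInf, Module.End.mem_eigenspace_iff] at hu
    exact hu ⟨a, ha⟩

omit hrange hmin hr in
theorem mem_center_of_scalar {a : Γ} {c : E} (h : R a = c • (1 : Module.End E V)) : a ∈ Subgroup.center Γ :=
  Subgroup.mem_center_iff.2 fun g => hinj (by rw [map_mul, map_mul, h, mul_smul_comm, smul_mul_assoc, one_mul, mul_one])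

theorem elementary_action {n : ℕ} (IH : ∀ m < n, DegBound.{w} r m) (hgoal : ¬ r ≤ n + 1) {A : Type*}
    [AddCommGroup A] [Finite A] (l : ℕ) [Fact l.Prime] (he : ∀ x : A, l • x = 0) (ψ : Γ →* AddMonoid.End A)
    (hψ : ψ.ker ≤ π.ker) :
    ∃ d, Nat.card A = l ^ d ∧ n ≤ d ∧ Nat.card (alternatingGroup (Fin r)) ≤ (l ^ d) ^ d := by
  letI : Module (ZMod l) A := AddCommGroup.zmodModule (n := l) he
  haveI : Module.Finite (ZMod l) A := Module.Finite.of_finite
  let φ : Γ →* Module.End (ZMod l) A :=
    { toFun := fun g => AddMonoidHom.toZModLinearMap l (ψ g)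
      map_one' := LinearMap.ext fun x => by rw [map_one]; rfl
      map_mul' := fun a b => LinearMap.ext fun x => by rw [map_mul]; rfl }
  have hφ : φ.ker ≤ π.ker := fun g hg => hψ (MonoidHom.mem_ker.2 (AddMonoidHom.ext fun x =>
    LinearMap.congr_fun (MonoidHom.mem_ker.1 hg) x))
  have hcardA : Nat.card A = l ^ finrank (ZMod l) A := by
    have h := Module.natCard_eq_pow_finrank (K := ZMod l) (V := A)
    rwa [Nat.card_zmod] at h
  refine ⟨finrank (ZMod l) A, hcardA, ?_, ?_⟩
  · by_contra hd
    set d := finrank (ZMod l) A with hddef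
    let b := Module.finBasis (ZMod l) A
    let E' := AlgebraicClosure (ZMod l)
    let R' : Γ →* Module.End E' (Fin d → E') :=
      (Matrix.toLinAlgEquiv' (R := E') (n := Fin d)).toMonoidHom.comp
        (((algebraMap (ZMod l) E').mapMatrix.toMonoidHom).comp
          ((LinearMap.toMatrixAlgEquiv b).toMonoidHom.comp φ))
    have hker : R'.ker ≤ π.ker := fun g hg => hφ (MonoidHom.mem_ker.2 (by
      refine (LinearMap.toMatrixAlgEquiv b).injective ?_
      refine Matrix.map_injective (algebraMap (ZMod l) E').injective ?_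
      refine (Matrix.toLinAlgEquiv' (R := E') (n := Fin d)).injective ?_
      have h := MonoidHom.mem_ker.1 hg
      simp only [R', MonoidHom.coe_comp, Function.comp_apply] at h
      refine h.trans ?_
      symm
      rw [map_one]
      show (Matrix.toLinAlgEquiv' (R := E') (n := Fin d)) ((algebraMap (ZMod l) E').mapMatrix 1) = 1
      rw [map_one, map_one]))
    have := (IH d (by omega) E' (Fin d → E') (Module.finrank_fin_fun (R := E')) Γ π hrange R' hker).1
    omega
  · let b := Module.finBasis (ZMod l) A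
    have hcard := card_le_of_ker_le hrange hmin hr
      (fun (g : Γ) (i : Fin (finrank (ZMod l) A)) => φ g (b i)) (fun a a' e => by
      have heq : φ a = φ a' := b.ext fun i => congrFun e i
      have hk : a⁻¹ * a' ∈ φ.ker := by
        rw [MonoidHom.mem_ker, map_mul, ← heq, ← map_mul, inv_mul_cancel, map_one]
      have := hφ hk
      rwa [MonoidHom.mem_ker, map_mul, map_inv, inv_mul_eq_one] at this)
    rwa [Nat.card_fun, Nat.card_fin, hcardA] at hcard

theorem noncentral {n : ℕ} (hn : finrank E V = n) [Nontrivial V] (IH : ∀ m < n, DegBound.{w} r m)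
    (hgoal : ¬ r ≤ n + 1)
    (hsc : ∀ (A : Subgroup Γ) [A.Normal], (∀ a ∈ A, ∀ b ∈ A, a * b = b * a) → ∀ a ∈ A,
      ∃ c : E, R a = c • (1 : Module.End E V))
    (hK : ¬ π.ker ≤ Subgroup.center Γ) : False := by
  classical
  set Z := Subgroup.center Γ ⊓ π.ker with hZdef
  haveI : Z.Normal := Subgroup.normal_inf_normal _ _
  set q := QuotientGroup.mk' Z with hqdef
  have hqs : Function.Surjective q := QuotientGroup.mk'_surjective Z
  set K' := π.ker.map q with hK'def
  haveI : K'.Normal := Subgroup.Normal.map inferInstance q hqs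
  have hK'ne : K' ≠ ⊥ := by
    intro e
    refine hK fun x hx => ?_
    have : q x ∈ K' := Subgroup.mem_map_of_mem q hx
    rw [e, Subgroup.mem_bot, hqdef, QuotientGroup.mk'_apply, QuotientGroup.eq_one_iff] at this
    exact this.1
  haveI := ker_solvable hrange hmin hr
  haveI : Group.IsSolvable K' := Group.isSolvable_of_surjective (q.subgroupMap_surjective π.ker)
  obtain ⟨M, ⟨hMn, hMne, hMle⟩, hMmin⟩ := WellFounded.has_min wellFounded_lt
    {M : Subgroup (Γ ⧸ Z) | M.Normal ∧ M ≠ ⊥ ∧ M ≤ K'} ⟨K', inferInstance, hK'ne, le_rfl⟩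
  haveI := hMn
  have hsub : ∀ N : Subgroup (Γ ⧸ Z), N.Normal → N ≤ M → N = ⊥ ∨ N = M := by
    intro N hN hle
    by_contra hc
    push Not at hc
    exact hMmin N ⟨hN, hc.1, hle.trans hMle⟩ (lt_of_le_of_ne hle hc.2)
  haveI : Group.IsSolvable M := Group.isSolvable_of_isSolvable_injective (Subgroup.inclusion_injective hMle)
  haveI : Nontrivial M := (Subgroup.nontrivial_iff_ne_bot M).2 hMne
  have hcom : ⁅M, M⁆ = ⊥ := by
    refine (hsub ⁅M, M⁆ inferInstance (Subgroup.commutator_le_self M)).resolve_right fun e => ?_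
    refine (IsSolvable.commutator_lt_top_of_nontrivial (G := M)).ne ?_
    refine Subgroup.map_injective M.subtype_injective ?_
    rw [Subgroup.map_subtype_commutator, e, ← MonoidHom.range_eq_map, Subgroup.range_subtype]
  have hMcomm : ∀ a ∈ M, ∀ b ∈ M, a * b = b * a := fun a ha b hb => by
    have := Subgroup.commutator_mem_commutator ha hb
    rwa [hcom, Subgroup.mem_bot, commutatorElement_eq_one_iff_mul_comm] at this
  -- exponent
  obtain ⟨l, hl, hdvd⟩ := Nat.exists_prime_and_dvd (n := Nat.card M) (by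
    have := Finite.one_lt_card (α := M); omega)
  haveI : Fact l.Prime := ⟨hl⟩
  obtain ⟨y, hy⟩ := exists_prime_orderOf_dvd_card' l hdvd
  let T : Subgroup (Γ ⧸ Z) :=
    { carrier := {x | x ∈ M ∧ x ^ l = 1}
      one_mem' := ⟨M.one_mem, one_pow _⟩
      mul_mem' := fun {a b} ha hb => ⟨M.mul_mem ha.1 hb.1, by
        rw [Commute.mul_pow (hMcomm a ha.1 b hb.1), ha.2, hb.2, one_mul]⟩
      inv_mem' := fun {a} ha => ⟨M.inv_mem ha.1, by rw [inv_pow, ha.2, inv_one]⟩ }
  haveI hTn : T.Normal := ⟨fun x hx g => ⟨hMn.conj_mem x hx.1 g, by rw [conj_pow, hx.2, mul_one, mul_inv_cancel]⟩⟩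
  have hexp : ∀ x ∈ M, x ^ l = 1 := by
    have hT : T = M := (hsub T hTn (fun x hx => hx.1)).resolve_left fun e => by
      have hyT : (y : Γ ⧸ Z) ∈ T := ⟨y.2, by rw [← Subgroup.coe_pow, ← hy, pow_orderOf_eq_one]; rfl⟩
      rw [e, Subgroup.mem_bot, ← Subgroup.coe_one M] at hyT
      rw [Subtype.ext hyT, orderOf_one] at hy
      exact hl.one_lt.ne hy
    intro x hx
    exact (hT.ge hx : x ∈ T).2
  letI : CommGroup M := { (inferInstance : Group M) with mul_comm := fun a b => Subtype.ext (hMcomm _ a.2 _ b.2) }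
  have he : ∀ x : Additive M, l • x = 0 := fun x => by
    apply Additive.toMul.injective
    rw [toMul_nsmul, toMul_zero]
    exact Subtype.ext (hexp _ x.toMul.2)
  haveI : Finite (Additive M) := Finite.of_equiv _ Additive.ofMul
  -- the action
  let φ : Γ →* AddMonoid.End (Additive M) :=
    { toFun := fun g => MonoidHom.toAdditive
        { toFun := fun x => (⟨q g * x * (q g)⁻¹, hMn.conj_mem _ x.2 _⟩ : M)
          map_one' := Subtype.ext (by simp)
          map_mul' := fun a b => Subtype.ext (by simp [mul_assoc]) }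
      map_one' := AddMonoidHom.ext fun x => by
        apply Additive.toMul.injective
        apply Subtype.ext
        show q 1 * (x.toMul : Γ ⧸ Z) * (q 1)⁻¹ = x.toMul
        simp
      map_mul' := fun a b => AddMonoidHom.ext fun x => by
        apply Additive.toMul.injective
        apply Subtype.ext
        show q (a * b) * (x.toMul : Γ ⧸ Z) * (q (a * b))⁻¹ = q a * (q b * x.toMul * (q b)⁻¹) * (q a)⁻¹
        simp [map_mul, mul_assoc] }
  set Q := M.comap q with hQdef
  haveI : Q.Normal := Subgroup.Normal.comap hMn q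
  have hQK : Q ≤ π.ker := fun x hx => by
    obtain ⟨y, hy, e⟩ := hMle hx
    have hz : y⁻¹ * x ∈ Z := (QuotientGroup.eq (s := Z)).1 e
    have := π.ker.mul_mem hy hz.2
    rwa [mul_inv_cancel_left] at this
  have hQA : ∀ x ∈ Q, x ∈ Subgroup.center Γ → q x = 1 := fun x hx hc => by
    rw [hqdef, QuotientGroup.mk'_apply, QuotientGroup.eq_one_iff]; exact ⟨hc, hQK hx⟩
  rcases normal_cases hrange hmin hr φ.ker with hφ | hφ
  swap
  · -- the action is trivial
    have htriv : ∀ g : Γ, ∀ x ∈ Q, g * x * g⁻¹ * x⁻¹ ∈ Z := fun g x hx => by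
      have h1 : φ g = 1 := MonoidHom.mem_ker.1 (hφ ▸ Subgroup.mem_top g)
      have h2 := congrArg (fun y : Additive M => (y.toMul : Γ ⧸ Z))
        (DFunLike.congr_fun h1 (Additive.ofMul (⟨q x, hx⟩ : M)))
      have h3 : q g * q x * (q g)⁻¹ = q x := h2
      rw [← QuotientGroup.eq_one_iff]
      show q (g * x * g⁻¹ * x⁻¹) = 1
      rw [map_mul, map_mul, map_mul, map_inv, map_inv, h3, mul_inv_cancel]
    obtain ⟨⟨m, hm⟩, hm1⟩ := (Subgroup.ne_bot_iff_exists_ne_one (H := M)).1 hMne
    obtain ⟨x, rfl⟩ := hqs m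
    refine hm1 (Subtype.ext (hQA x hm (Subgroup.mem_center_iff.2 fun g => ?_)))
    have hz := fun g => Subgroup.mem_center_iff.1 (htriv g x hm).1
    let f : Γ →* Z := MonoidHom.mk' (fun g => ⟨g * x * g⁻¹ * x⁻¹, htriv g x hm⟩) (fun a b => Subtype.ext (by
      show a * b * x * (a * b)⁻¹ * x⁻¹ = a * x * a⁻¹ * x⁻¹ * (b * x * b⁻¹ * x⁻¹)
      calc a * b * x * (a * b)⁻¹ * x⁻¹ = a * ((b * x * b⁻¹ * x⁻¹) * (x * a⁻¹ * x⁻¹)) := by group
        _ = a * ((x * a⁻¹ * x⁻¹) * (b * x * b⁻¹ * x⁻¹)) := by rw [(hz b (x * a⁻¹ * x⁻¹)).symm]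
        _ = _ := by group))
    have hf : commutator Γ ≤ f.ker := by
      rw [commutator_def, Subgroup.commutator_le]
      intro a _ b _
      rw [MonoidHom.mem_ker, map_commutatorElement, commutatorElement_eq_one_iff_mul_comm]
      exact Subtype.ext ((Subgroup.mem_center_iff.1 (f b).2.1) _)
    rw [perfect hrange hmin hr] at hf
    have hg : g * x * g⁻¹ * x⁻¹ = 1 := congrArg Subtype.val (MonoidHom.mem_ker.1 (hf (Subgroup.mem_top g)))
    calc g * x = g * x * g⁻¹ * x⁻¹ * (x * g) := by group
      _ = x * g := by rw [hg, one_mul]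
  obtain ⟨d, hcardA, hd, hcardalt⟩ := elementary_action hrange hmin hr R hinj IH hgoal l he φ hφ
  have hcardM : Nat.card M = l ^ d := (Nat.card_congr Additive.ofMul).trans hcardA
  -- coset representatives are independent
  choose s hs using fun m : M => hqs m.1
  have hsQ : ∀ m, s m ∈ Q := fun m => show q (s m) ∈ M by rw [hs]; exact m.2
  have hscal : ∀ z ∈ Z, ∃ c : E, R z = c • (1 : Module.End E V) := fun z hz =>
    hsc Z (fun a ha b _ => (Subgroup.mem_center_iff.1 ha.1 b).symm) z hz
  have hcommQ : ∀ a ∈ Q, ∀ b ∈ Q, b * a * b⁻¹ * a⁻¹ ∈ Z := fun a ha b hb => by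
    rw [← QuotientGroup.eq_one_iff]
    show q (b * a * b⁻¹ * a⁻¹) = 1
    rw [map_mul, map_mul, map_mul, map_inv, map_inv, hMcomm _ hb _ ha]
    group
  choose c hc using fun p : M × Q => hscal _ (hcommQ (s p.1) (hsQ p.1) p.2 p.2.2)
  let X : Q → Module.End E (Module.End E V) := fun b =>
    (LinearMap.mulLeft E (R (b : Γ))).comp (LinearMap.mulRight E (R (b : Γ)⁻¹))
  have heig : ∀ m b, X b (R (s m)) = c (m, b) • R (s m) := fun m b => by
    show R (b : Γ) * (R (s m) * R (b : Γ)⁻¹) = _
    rw [← map_mul, ← map_mul, show (b : Γ) * (s m * (b : Γ)⁻¹) = b * s m * (b : Γ)⁻¹ * (s m)⁻¹ * s m by group,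
      map_mul, hc (m, b), smul_mul_assoc, one_mul]
  have hRne : ∀ m, R (s m) ≠ 0 := fun m e => by
    have := congrArg (fun T => T * R (s m)⁻¹) e
    simp only [zero_mul, ← map_mul, mul_inv_cancel, map_one] at this
    exact one_ne_zero this
  have hinjc : Function.Injective fun (m : M) (b : Q) => c (m, b) := by
    intro m m' e
    have hcm : ∀ b : Q, (b : Γ) * ((s m)⁻¹ * s m') = (s m)⁻¹ * s m' * b := by
      intro b
      have h1 : (b : Γ) * s m * (b : Γ)⁻¹ * (s m)⁻¹ = b * s m' * (b : Γ)⁻¹ * (s m')⁻¹ :=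
        hinj (by rw [hc (m, b), hc (m', b), show c (m, b) = c (m', b) from congrFun e b])
      set u := (b : Γ) * s m * (b : Γ)⁻¹ * (s m)⁻¹ with hu
      have h2 : (b : Γ) * s m * (b : Γ)⁻¹ = u * s m := by rw [hu]; group
      have h3 : (b : Γ) * s m' * (b : Γ)⁻¹ = u * s m' := by rw [h1]; group
      calc (b : Γ) * ((s m)⁻¹ * s m') = ((b : Γ) * s m * (b : Γ)⁻¹)⁻¹ * ((b : Γ) * s m' * (b : Γ)⁻¹) * b := by group
        _ = _ := by rw [h2, h3]; group
    -- the centre of Q
    let A : Subgroup Γ := Q ⊓ Subgroup.centralizer (Q : Set Γ)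
    haveI : A.Normal := Subgroup.normal_inf_normal _ _
    have hmem : (s m)⁻¹ * s m' ∈ A := ⟨Q.mul_mem (Q.inv_mem (hsQ m)) (hsQ m'),
      Subgroup.mem_centralizer_iff.2 fun b hb => hcm ⟨b, hb⟩⟩
    obtain ⟨κ, hκ⟩ := hsc A (fun a ha b hb => (Subgroup.mem_centralizer_iff.1 ha.2 b hb.1).symm) _ hmem
    have h4 := hQA _ hmem.1 (mem_center_of_scalar R hinj hκ)
    rw [map_mul, map_inv, hs, hs, inv_mul_eq_one] at h4
    exact Subtype.ext h4
  haveI : Fintype M := Fintype.ofFinite _
  have hli := linearIndependent_of_separated X (fun m b => c (m, b)) (fun m => R (s m)) hRne heig hinjc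
  have hle := hli.fintype_card_le_finrank
  rw [← Nat.card_eq_fintype_card, hcardM, Module.finrank_linearMap, hn] at hle
  have h2d : 2 ^ d ≤ n * n := (Nat.pow_le_pow_left hl.two_le d).trans hle
  have hn4 : n ≤ 4 := by
    by_contra hn5
    have h5 : ∀ k, 5 ≤ k → k * k < 2 ^ k := by
      intro k hk
      induction k, hk using Nat.le_induction with
      | base => norm_num
      | succ k hk ih => rw [pow_succ]; nlinarith
    have := h5 n (by omega)
    have := Nat.pow_le_pow_right (show 2 > 0 by norm_num) (show n ≤ d by omega)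
    omega
  have hn16 : n * n ≤ 16 := by nlinarith
  have hd4 : d ≤ 4 := by
    by_contra hd5
    have := Nat.pow_le_pow_right (show 2 > 0 by norm_num) (show 5 ≤ d by omega)
    norm_num at this
    omega
  have hb1 : (l ^ d) ^ d ≤ 16 ^ d := Nat.pow_le_pow_left (hle.trans hn16) d
  have hb2 : 16 ^ d ≤ 16 ^ 4 := Nat.pow_le_pow_right (by norm_num) hd4
  have := alt_card_big hr
  norm_num at hb2
  omega

theorem central {n : ℕ} (hn : finrank E V = n) [Nontrivial V]
    (hsc : ∀ (A : Subgroup Γ) [A.Normal], (∀ a ∈ A, ∀ b ∈ A, a * b = b * a) → ∀ a ∈ A,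
      ∃ c : E, R a = c • (1 : Module.End E V))
    (hK : π.ker ≤ Subgroup.center Γ) : LB E r n := by
  classical
  have hp := perfect hrange hmin hr
  obtain ⟨b, hb2, hb⟩ := ker_le_zpowers (n := r) (by omega) (by omega) (by omega) hrange hK
  have hker : ∀ x, π x = 1 → x = 1 ∨ x = b := by
    intro x hx
    obtain ⟨k, rfl⟩ := Subgroup.mem_zpowers_iff.1 (hb x hx (hp ▸ Subgroup.mem_top x))
    rcases Int.even_or_odd' k with ⟨i, rfl | rfl⟩
    · exact Or.inl (by rw [zpow_mul, zpow_two, hb2, one_zpow])
    · exact Or.inr (by rw [zpow_add, zpow_mul, zpow_two, hb2, one_zpow, zpow_one, one_mul])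
  rw [← hn]
  by_cases hpi : ∀ x, π x = 1 → x = 1
  · have hinjπ : Function.Injective π := (injective_iff_map_eq_one π).2 hpi
    have hex : ∀ g : Perm (Fin r), sign g = 1 → ∃ x, π x = g := fun g hg =>
      exists_preimage hrange (mem_alternatingGroup.2 hg)
    let ρ : Rep r E V :=
      { R := fun g => if hg : sign g = 1 then R (hex g hg).choose else 1
        map_one := by
          rw [dif_pos (by simp)]
          rw [hpi _ (hex 1 (by simp)).choose_spec, map_one]
        map_mul := fun g h hg hh => by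
          have hgh : sign (g * h) = 1 := by simp [hg, hh]
          rw [dif_pos hg, dif_pos hh, dif_pos hgh, ← map_mul]
          congr 1
          refine hinjπ ?_
          rw [map_mul, (hex g hg).choose_spec, (hex h hh).choose_spec, (hex _ hgh).choose_spec] }
    refine linear_bound r hr V ρ ?_
    have : Nontrivial (alternatingGroup (Fin r)) := by
      have := alt_card_big hr
      exact Finite.one_lt_card_iff_nontrivial.1 (by omega)
    obtain ⟨g, hg⟩ := exists_ne (1 : alternatingGroup (Fin r))
    refine ⟨g.1, mem_alternatingGroup.1 g.2, fun e => hg (Subtype.ext ?_)⟩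
    simp only [ρ, dif_pos (mem_alternatingGroup.1 g.2)] at e
    have := hinj (e.trans (map_one R).symm)
    rw [← (hex g.1 (mem_alternatingGroup.1 g.2)).choose_spec, this, map_one]
    rfl
  · push Not at hpi
    obtain ⟨z, hz, hz1⟩ := hpi
    have hzb : z = b := (hker z hz).resolve_left hz1
    have hzz : z * z = 1 := by rw [hzb, hb2]
    obtain ⟨c, hc⟩ := hsc π.ker (fun a ha x _ => (Subgroup.mem_center_iff.1 (hK ha) x).symm) z hz
    have hc1 : c = -1 := by
      have h1 : (c * c) • (1 : Module.End E V) = (1 : E) • (1 : Module.End E V) := by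
        have e : R z * R z = 1 := by rw [← map_mul, hzz, map_one]
        rw [hc, smul_mul_smul_comm, one_mul] at e
        rw [one_smul]; exact e
      rcases mul_self_eq_one_iff.1 (smul_left_injective E one_ne_zero h1) with h | h
      · exact absurd (hinj (by rw [hc, h, one_smul, map_one])) hz1
      · exact h
    have hRz : R z = -1 := by rw [hc, hc1, neg_one_smul]
    have h2 : (2 : E) ≠ 0 := fun e => hz1 (hinj (by
      rw [hRz, map_one, ← neg_one_smul E (1 : Module.End E V), show (-1 : E) = 1 by linear_combination -e, one_smul]))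
    have hker' : ∀ x, π x = 1 → x = 1 ∨ x = z := fun x hx => by rw [hzb]; exact hker x hx
    let S : Spin r Γ E V :=
      { π := π, R := R, z := z, range := hrange, ker_eq := hker', hz := hz, Rz := hRz, hz1 := hz1
        dsq := by
          intro x a b c d hab hac had hbc hbd hcd hx
          have hxx : π (x * x) = 1 := by
            rw [map_mul, hx]
            exact (quad hab hac had hbc hbd hcd).1
          rcases hker' _ hxx with hbad | h
          swap
          · exact h
          exfalso
          -- every lift of a double transposition squares to one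
          have hall : ∀ a' b' c' d', a' ≠ b' → a' ≠ c' → a' ≠ d' → b' ≠ c' → b' ≠ d' → c' ≠ d' →
              ∀ x', π x' = ds a' b' c' d' → x' * x' = 1 := by
            intro a' b' c' d' h1 h2 h3 h4 h5 h6 x' hx'
            obtain ⟨g, hg, hgm⟩ := exists_move ![a, b, c, d] ![a', b', c', d']
              (by intro i j hij; fin_cases i <;> fin_cases j <;> simp_all)
              (by intro i j hij; fin_cases i <;> fin_cases j <;> simp_all) (by omega)
            obtain ⟨y, hy⟩ := exists_preimage hrange (mem_alternatingGroup.2 hg)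
            have e : π x' = π (y * x * y⁻¹) := by
              rw [map_mul, map_mul, map_inv, hy, hx, hx', conj_ds]
              exact (congrArg₂ (· * ·) (congrArg₂ swap (hgm 0) (hgm 1)) (congrArg₂ swap (hgm 2) (hgm 3))).symm
            have hxy : y * x * y⁻¹ * (y * x * y⁻¹) = 1 := by
              calc y * x * y⁻¹ * (y * x * y⁻¹) = y * (x * x) * y⁻¹ := by group
                _ = 1 := by rw [hbad]; group
            rcases hker' ((y * x * y⁻¹)⁻¹ * x') (by rw [map_mul, map_inv, ← e, inv_mul_cancel]) with h | h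
            · rw [← inv_mul_eq_one.1 h, hxy]
            · rw [inv_mul_eq_iff_eq_mul] at h
              have hzc := Subgroup.mem_center_iff.1 (hK hz)
              rw [h, mul_assoc, ← mul_assoc z, ← hzc (y * x * y⁻¹), mul_assoc (y * x * y⁻¹) z z, hzz, mul_one, hxy]
          have hodd : ∀ t : Perm (Fin r), IsThreeCycle t → ∃! x, π x = t ∧ x ^ 3 = 1 := by
            intro t ht
            obtain ⟨x, hx⟩ := exists_preimage hrange ht.mem_alternatingGroup
            have hzc := fun g => Subgroup.mem_center_iff.1 (hK hz) g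
            have h3 : π (x ^ 3) = 1 := by rw [map_pow, hx, ← ht.orderOf, pow_orderOf_eq_one]
            have hz3 : z ^ 3 = z := by rw [pow_succ, pow_two, hzz, one_mul]
            have huniq : ∀ u v, π u = t → u ^ 3 = 1 → π v = t → v ^ 3 = 1 → u = v := by
              intro u v hu hu3 hv hv3
              rcases hker' (u⁻¹ * v) (by rw [map_mul, map_inv, hu, hv, inv_mul_cancel]) with h | h
              · exact inv_mul_eq_one.1 h
              · rw [inv_mul_eq_iff_eq_mul] at h
                rw [h, Commute.mul_pow (hzc u), hu3, one_mul, hz3] at hv3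
                exact absurd hv3 hz1
            rcases hker' _ h3 with h | h
            · exact ⟨x, ⟨hx, h⟩, fun v hv => huniq v x hv.1 hv.2 hx h⟩
            · have hx' : π (x * z) = t ∧ (x * z) ^ 3 = 1 :=
                ⟨by rw [map_mul, hx, hz, mul_one], by rw [Commute.mul_pow (hzc x), h, hz3, hzz]⟩
              exact ⟨x * z, hx', fun v hv => huniq v _ hv.1 hv.2 hx'.1 hx'.2⟩
          let L : Perm (Fin r) → Γ := fun t => if ht : IsThreeCycle t then (hodd t ht).choose else 1
          have hL : ∀ {t}, IsThreeCycle t → π (L t) = t ∧ L t ^ 3 = 1 := fun {t} ht => by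
            simp only [L, dif_pos ht]; exact (hodd t ht).choose_spec.1
          have hLu : ∀ {t}, IsThreeCycle t → ∀ x, π x = t → x ^ 3 = 1 → x = L t := fun {t} ht x h1 h2 =>
            (hodd t ht).unique ⟨h1, h2⟩ (hL ht)
          let T : TriLift π :=
            { lift := L
              map_lift := fun ht => (hL ht).1
              conj_lift := fun {t} ht h => hLu (cycleType_conj.trans ht) _
                (by rw [map_mul, map_mul, map_inv, (hL ht).1]) (by rw [conj_pow, (hL ht).2, mul_one, mul_inv_cancel])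
              pow_lift := fun ht => (hL ht).2
              inv_lift := fun {t} ht => (hLu ht.inv _ (by rw [map_inv, (hL ht).1])
                (by rw [inv_pow, (hL ht).2, inv_one])).symm
              edge := fun {k a c d} hka hkc hkd hac had hcd => by
                obtain ⟨hX, hX3⟩ := hL (isThreeCycle_tri hka hkc hac)
                obtain ⟨hY, hY3⟩ := hL (isThreeCycle_tri hka hkd had)
                have hXY : π (L (tri k a c) * L (tri k a d)) = ds k c a d := by
                  rw [map_mul, hX, hY]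
                  exact (quad hka hkc hkd hac had hcd).2.1
                have hsq := hall k c a d hkc hka hkd hac.symm hcd had _ hXY
                set X := L (tri k a c) with hXdef
                set Y := L (tri k a d) with hYdef
                refine hLu (isThreeCycle_tri hkd hkc hcd.symm) _ ?_ ?_
                · rw [map_mul, map_inv, hX, hY]
                  exact (quad hka hkc hkd hac had hcd).2.2
                · have e : X * Y⁻¹ = Y⁻¹ * X⁻¹ * Y := by
                    calc X * Y⁻¹ = (X * Y) * (X * Y) * Y⁻¹ * X⁻¹ * (Y ^ 3)⁻¹ * Y := by group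
                      _ = Y⁻¹ * X⁻¹ * Y := by rw [hsq, hY3]; group
                  rw [e, show Y⁻¹ * X⁻¹ * Y = Y⁻¹ * X⁻¹ * Y⁻¹⁻¹ by rw [inv_inv], conj_pow, inv_pow, hX3, inv_one,
                    mul_one, inv_inv, inv_mul_cancel] }
          exact hz1 (T.ker_inf_commutator_eq_bot hrange.le hK hz (hp ▸ Subgroup.mem_top z)) }
    exact spin_bound h2 r hr Γ V S

end Main

theorem deg_bound (r : ℕ) (hr : 9 ≤ r) (n : ℕ) : DegBound.{w} r n := by
  induction n using Nat.strong_induction_on with
  | _ n IH =>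
    intro E _ _ V _ _ _ hn Γ _ _
    suffices h : ∀ N : ℕ, ∀ (Γ : Type w) [Group Γ] [Finite Γ], Nat.card Γ = N → ∀ (π : Γ →* Perm (Fin r)),
        π.range = alternatingGroup (Fin r) → ∀ R : Γ →* Module.End E V, R.ker ≤ π.ker → LB E r n from
      h _ Γ rfl
    intro N
    induction N using Nat.strong_induction_on with
    | _ N IHN =>
      intro Γ _ _ hN π hrange R hker
      by_cases hgoal : r ≤ n + 1
      · exact LB.of_le hgoal
      by_cases hM : ∃ M : Subgroup Γ, M.map π = alternatingGroup (Fin r) ∧ M ≠ ⊤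
      · obtain ⟨M, hM1, hM2⟩ := hM
        refine IHN (Nat.card M) ?_ M rfl (π.comp M.subtype) ?_ (R.comp M.subtype) ?_
        · rw [← hN]
          exact lt_of_le_of_ne (Subgroup.card_le_card_group M) fun e => hM2 (Subgroup.eq_top_of_card_eq M e)
        · rw [MonoidHom.range_comp, Subgroup.range_subtype, hM1]
        · exact fun x hx => hker hx
      push Not at hM
      by_cases hinj : R.ker = ⊥
      swap
      · have hlt : Nat.card (Γ ⧸ R.ker) < N := by
          rw [← hN, Subgroup.card_eq_card_quotient_mul_card_subgroup R.ker]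
          exact lt_mul_of_one_lt_right Nat.card_pos ((Subgroup.one_lt_card_iff_ne_bot _).2 hinj)
        have hrange' : (QuotientGroup.lift R.ker π hker).range = alternatingGroup (Fin r) := by
          ext g
          constructor
          · rintro ⟨x, rfl⟩
            obtain ⟨y, rfl⟩ := QuotientGroup.mk'_surjective R.ker x
            exact hrange ▸ ⟨y, rfl⟩
          · intro hg
            obtain ⟨y, hy⟩ := exists_preimage hrange hg
            exact ⟨QuotientGroup.mk' R.ker y, hy⟩
        let R' : Γ ⧸ R.ker →* Module.End E V := QuotientGroup.lift R.ker R le_rfl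
        have hker' : R'.ker ≤ (QuotientGroup.lift R.ker π hker).ker := by
          intro x hx
          obtain ⟨y, rfl⟩ := QuotientGroup.mk'_surjective R.ker x
          have hy : y ∈ R.ker := MonoidHom.mem_ker.2 (MonoidHom.mem_ker.1 hx)
          exact MonoidHom.mem_ker.2 (MonoidHom.mem_ker.1 (hker hy))
        exact IHN _ hlt (Γ ⧸ R.ker) rfl _ hrange' R' hker'
      have hinj' : Function.Injective R := (MonoidHom.ker_eq_bot_iff R).1 hinj
      have : Nontrivial V := by
        by_contra h
        rw [not_nontrivial_iff_subsingleton] at h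
        refine ker_ne_top hrange hM hr (eq_top_iff.2 fun x _ => hker ?_)
        rw [MonoidHom.mem_ker]
        exact Subsingleton.elim _ _
      have hirr := irreducible hrange hM hr R hinj' hn (fun m hm => IH m hm) hgoal
      have hsc : ∀ (A : Subgroup Γ) [A.Normal], (∀ a ∈ A, ∀ b ∈ A, a * b = b * a) → ∀ a ∈ A,
          ∃ c : E, R a = c • (1 : Module.End E V) := fun A _ hA a ha =>
        scalar hrange hM hr R hinj' hn hirr hgoal A hA ha
      by_cases hK : π.ker ≤ Subgroup.center Γ
      · exact central hrange hM hr R hinj' hn hsc hK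
      · exact (noncentral hrange hM hr R hinj' hn (fun m hm => IH m hm) hgoal hsc hK).elim

end Cfsg.Agent.Lib.AltDeg
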