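import Cfsg.Agent.Lib.AltDeg.Ops
import Cfsg.Agent.Lib.SchurAlt.AltBound

/-!
# Representations of alternating groups as multiplicative functions on even permutations
-/

set_option autoImplicit false

namespace Cfsg.Agent.Lib.AltDeg

open Equiv Equiv.Perm Cfsg.Agent.Lib.SchurAlt Module

/-- A representation of `A_r`. -/
structure Rep (r : ℕ) (F V : Type*) [Field F] [AddCommGroup V] [Module F V] where
  R : Perm (Fin r) → Module.End F V
  map_one : R 1 = 1
  map_mul : ∀ g h, sign g = 1 → sign h = 1 → R (g * h) = R g * R h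

variable {r : ℕ} {F V : Type*} [Field F] [AddCommGroup V] [Module F V]

/-- A double transposition. -/
def ds (a b c d : Fin r) : Perm (Fin r) := swap a b * swap c d

theorem sign_ds {a b c d : Fin r} (hab : a ≠ b) (hcd : c ≠ d) : sign (ds a b c d) = 1 := by
  simp [ds, sign_swap hab, sign_swap hcd]

theorem sign_tri {a b c : Fin r} (hab : a ≠ b) (hac : a ≠ c) (hbc : b ≠ c) : sign (tri a b c) = 1 :=
  Equiv.Perm.mem_alternatingGroup.1 (isThreeCycle_tri hab hac hbc).mem_alternatingGroup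

theorem conj_ds (g : Perm (Fin r)) (a b c d : Fin r) : g * ds a b c d * g⁻¹ = ds (g a) (g b) (g c) (g d) := by
  simp only [ds, swap_apply_apply]
  group

theorem sign_conj (g h : Perm (Fin r)) : sign (g * h * g⁻¹) = sign h := by
  rw [_root_.map_mul, _root_.map_mul, _root_.map_inv, mul_right_comm, mul_inv_cancel, one_mul]

namespace Rep

variable (ρ : Rep r F V)

/-- As a homomorphism. -/
def hom : alternatingGroup (Fin r) →* Module.End F V where
  toFun g := ρ.R g
  map_one' := ρ.map_one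
  map_mul' g h := ρ.map_mul g h (mem_alternatingGroup.1 g.2) (mem_alternatingGroup.1 h.2)

theorem inv_mul {g : Perm (Fin r)} (hg : sign g = 1) : ρ.R g⁻¹ * ρ.R g = 1 := by
  rw [← ρ.map_mul _ _ (by simp [hg]) hg, inv_mul_cancel, ρ.map_one]

theorem mul_inv {g : Perm (Fin r)} (hg : sign g = 1) : ρ.R g * ρ.R g⁻¹ = 1 := by
  rw [← ρ.map_mul _ _ hg (by simp [hg]), mul_inv_cancel, ρ.map_one]

theorem injective {g : Perm (Fin r)} (hg : sign g = 1) : Function.Injective (ρ.R g) := fun x y e => by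
  have := congrArg (ρ.R g⁻¹) e
  simpa [← Module.End.mul_apply, ρ.inv_mul hg] using this

/-- Conjugation of operators. -/
theorem conj_eq {g h : Perm (Fin r)} (hg : sign g = 1) (hh : sign h = 1) :
    ρ.R (g * h * g⁻¹) * ρ.R g = ρ.R g * ρ.R h := by
  rw [← ρ.map_mul _ _ (by rw [sign_conj]; exact hh) hg, ← ρ.map_mul _ _ hg hh, inv_mul_cancel_right]

theorem commute {g h : Perm (Fin r)} (hg : sign g = 1) (hh : sign h = 1) (e : Commute g h) :
    Commute (ρ.R g) (ρ.R h) := by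
  show _ * _ = _ * _
  rw [← ρ.map_mul _ _ hg hh, ← ρ.map_mul _ _ hh hg, e.eq]

/-- The commutator space. -/
def D (g : Perm (Fin r)) : Submodule F V := LinearMap.range (ρ.R g - 1)

theorem D_one : ρ.D 1 = ⊥ := by rw [D, ρ.map_one, sub_self, LinearMap.range_zero]

theorem D_mul {g h : Perm (Fin r)} (hg : sign g = 1) (hh : sign h = 1) : ρ.D (g * h) ≤ ρ.D g ⊔ ρ.D h := by
  rw [D, ρ.map_mul g h hg hh]
  exact range_mul_sub_one _ _

theorem D_inv {g : Perm (Fin r)} (hg : sign g = 1) : ρ.D g⁻¹ ≤ ρ.D g := by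
  rintro _ ⟨v, rfl⟩
  refine ⟨-(ρ.R g⁻¹ v), ?_⟩
  simp only [LinearMap.sub_apply, Module.End.one_apply, map_neg, ← Module.End.mul_apply, ρ.mul_inv hg]
  abel

theorem map_D {g h : Perm (Fin r)} (hg : sign g = 1) (hh : sign h = 1) :
    (ρ.D h).map (ρ.R g) ≤ ρ.D (g * h * g⁻¹) := by
  rintro _ ⟨_, ⟨v, rfl⟩, rfl⟩
  refine ⟨ρ.R g v, ?_⟩
  simp only [LinearMap.sub_apply, Module.End.one_apply, ← Module.End.mul_apply, ρ.conj_eq hg hh]
  simp [Module.End.mul_apply]

/-- Fixed by every element acting trivially. -/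
theorem fix_D {g h : Perm (Fin r)} (e : (ρ.R g - 1) * (ρ.R h - 1) = 0) {v : V} (hv : v ∈ ρ.D h) :
    ρ.R g v = v := by
  have := range_of_zero e hv
  simpa [sub_eq_zero] using this

theorem zero_iff {g h : Perm (Fin r)} : (ρ.R g - 1) * (ρ.R h - 1) = 0 ↔ ∀ v ∈ ρ.D h, ρ.R g v = v := by
  refine ⟨fun e v hv => ρ.fix_D e hv, fun e => LinearMap.ext fun v => ?_⟩
  simp only [Module.End.mul_apply, LinearMap.zero_apply]
  show ρ.R g _ - _ = 0
  rw [sub_eq_zero]
  exact e _ ⟨v, rfl⟩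

theorem zero_conj {g x y : Perm (Fin r)} (hg : sign g = 1) (hx : sign x = 1) (hy : sign y = 1)
    (e : (ρ.R x - 1) * (ρ.R y - 1) = 0) :
    (ρ.R (g * x * g⁻¹) - 1) * (ρ.R (g * y * g⁻¹) - 1) = 0 := by
  have h : ∀ x, sign x = 1 → ρ.R (g * x * g⁻¹) - 1 = ρ.R g * (ρ.R x - 1) * ρ.R g⁻¹ := fun x hx => by
    rw [mul_sub, mul_one, sub_mul, ← ρ.conj_eq hg hx, ρ.mul_inv hg, mul_assoc _ (ρ.R g), ρ.mul_inv hg, mul_one]
  rw [h x hx, h y hy, show ρ.R g * (ρ.R x - 1) * ρ.R g⁻¹ * (ρ.R g * (ρ.R y - 1) * ρ.R g⁻¹) =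
    ρ.R g * ((ρ.R x - 1) * (ρ.R g⁻¹ * ρ.R g) * (ρ.R y - 1)) * ρ.R g⁻¹ by noncomm_ring,
    ρ.inv_mul hg, mul_one, e, mul_zero, zero_mul]

/-- The even permutations fixing a set of vectors pointwise. -/
def fixer (W : Set V) : Subgroup (alternatingGroup (Fin r)) where
  carrier := {g | ∀ v ∈ W, ρ.R g v = v}
  one_mem' v _ := by simp [ρ.map_one]
  mul_mem' {g h} hg hh v hv := by
    show ρ.R ((g : Perm (Fin r)) * h) v = v
    rw [ρ.map_mul _ _ (mem_alternatingGroup.1 g.2) (mem_alternatingGroup.1 h.2), Module.End.mul_apply, hh v hv,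
      hg v hv]
  inv_mem' {g} hg v hv := by
    show ρ.R ((g : Perm (Fin r))⁻¹) v = v
    conv_lhs => rw [← hg v hv, ← Module.End.mul_apply, ρ.inv_mul (mem_alternatingGroup.1 g.2)]
    rfl

theorem mem_fixer {W : Set V} {g : alternatingGroup (Fin r)} : g ∈ ρ.fixer W ↔ ∀ v ∈ W, ρ.R g v = v := Iff.rfl

/-- A subspace invariant under even permutations of an embedded index set. -/
def restrict {s : ℕ} (ι : Fin s ↪ Fin r) (W : Submodule F V)
    (hW : ∀ h : Perm (Fin s), sign h = 1 → ∀ v ∈ W, ρ.R (h.viaFintypeEmbedding ι) v ∈ W) : Rep s F W where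
  R h := if hh : sign h = 1 then (ρ.R (h.viaFintypeEmbedding ι)).restrict (hW h hh) else 1
  map_one := by
    rw [dif_pos (Perm.sign_one)]
    refine LinearMap.ext fun v => Subtype.ext ?_
    have : (1 : Perm (Fin s)).viaFintypeEmbedding ι = 1 := by
      ext x
      by_cases hx : x ∈ Set.range ι
      · obtain ⟨y, rfl⟩ := hx; simp
      · rw [Perm.viaFintypeEmbedding_apply_notMem_range _ _ hx]; rfl
    simp [this, ρ.map_one]
  map_mul g h hg hh := by
    rw [dif_pos hg, dif_pos hh, dif_pos (by simp [hg, hh])]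
    refine LinearMap.ext fun v => Subtype.ext ?_
    have : (g * h).viaFintypeEmbedding ι = g.viaFintypeEmbedding ι * h.viaFintypeEmbedding ι := by
      ext x
      by_cases hx : x ∈ Set.range ι
      · obtain ⟨y, rfl⟩ := hx; simp
      · simp [Perm.viaFintypeEmbedding_apply_notMem_range _ _ hx]
    simp [this, ρ.map_mul _ _ ((viaFintypeEmbedding_sign g ι).trans hg) ((viaFintypeEmbedding_sign h ι).trans hh)]

end Rep

end Cfsg.Agent.Lib.AltDeg
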