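import Cfsg.Agent.Lib.AltDeg.Linear

/-!
# Representations of a double cover of an alternating group
-/

set_option autoImplicit false
set_option maxRecDepth 4000

namespace Cfsg.Agent.Lib.AltDeg

open Equiv Equiv.Perm Cfsg.Agent.Lib.SchurAlt Module

universe u v w

theorem via_mul {s r : ℕ} (ι : Fin s ↪ Fin r) (g h : Perm (Fin s)) :
    (g * h).viaFintypeEmbedding ι = g.viaFintypeEmbedding ι * h.viaFintypeEmbedding ι := by
  ext x
  by_cases hx : x ∈ Set.range ι
  · obtain ⟨y, rfl⟩ := hx; simp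
  · simp [Perm.viaFintypeEmbedding_apply_notMem_range _ _ hx]

/-- Extension along an embedding, as a homomorphism. -/
def via {s r : ℕ} (ι : Fin s ↪ Fin r) : Perm (Fin s) →* Perm (Fin r) :=
  MonoidHom.mk' (fun h => h.viaFintypeEmbedding ι) (via_mul ι)

theorem via_apply_image {s r : ℕ} (ι : Fin s ↪ Fin r) (h : Perm (Fin s)) (i : Fin s) : via ι h (ι i) = ι (h i) :=
  Perm.viaFintypeEmbedding_apply_image _ _ _

theorem via_injective {s r : ℕ} (ι : Fin s ↪ Fin r) : Function.Injective (via ι) := fun g h e =>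
  Equiv.ext fun i => ι.injective (by rw [← via_apply_image, e, via_apply_image])

theorem sign_via {s r : ℕ} (ι : Fin s ↪ Fin r) (h : Perm (Fin s)) : sign (via ι h) = sign h :=
  viaFintypeEmbedding_sign h ι

theorem via_swap {s r : ℕ} (ι : Fin s ↪ Fin r) (a b : Fin s) : via ι (swap a b) = swap (ι a) (ι b) := by
  ext x
  by_cases hx : x ∈ Set.range ι
  · obtain ⟨y, rfl⟩ := hx
    rw [via_apply_image, ι.injective.swap_apply]
  · rw [show via ι (swap a b) x = x from Perm.viaFintypeEmbedding_apply_notMem_range _ _ hx,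
      swap_apply_of_ne_of_ne (fun e => hx ⟨a, e.symm⟩) (fun e => hx ⟨b, e.symm⟩)]

theorem via_ds {s r : ℕ} (ι : Fin s ↪ Fin r) (a b c d : Fin s) :
    via ι (ds a b c d) = ds (ι a) (ι b) (ι c) (ι d) := by
  rw [ds, map_mul, via_swap, via_swap]; rfl

theorem via_commute {s r : ℕ} (ι : Fin s ↪ Fin r) (h : Perm (Fin s)) {g : Perm (Fin r)}
    (hg : ∀ y, g (ι y) = ι y) : Commute (via ι h) g := by
  refine Equiv.ext fun x => ?_
  simp only [Perm.mul_apply]
  by_cases hx : x ∈ Set.range ι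
  · obtain ⟨y, rfl⟩ := hx
    rw [hg, via_apply_image, hg]
  · show via ι h (g x) = g (via ι h x)
    rw [show via ι h x = x from Perm.viaFintypeEmbedding_apply_notMem_range _ _ hx,
      show via ι h (g x) = g x from Perm.viaFintypeEmbedding_apply_notMem_range _ _ ?_]
    rintro ⟨y, hy⟩
    exact hx ⟨y, g.injective ((hg y).trans hy)⟩

/-- A faithful representation of the double cover. -/
structure Spin (r : ℕ) (Γ : Type w) [Group Γ] (F : Type u) (V : Type v) [Field F] [AddCommGroup V] [Module F V] where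
  π : Γ →* Perm (Fin r)
  R : Γ →* Module.End F V
  z : Γ
  range : π.range = alternatingGroup (Fin r)
  ker_eq : ∀ x, π x = 1 → x = 1 ∨ x = z
  hz : π z = 1
  Rz : R z = -1
  hz1 : z ≠ 1
  dsq : ∀ x a b c d, a ≠ b → a ≠ c → a ≠ d → b ≠ c → b ≠ d → c ≠ d → π x = ds a b c d → x * x = z

variable {r : ℕ} {Γ : Type w} [Group Γ] {F : Type u} {V : Type v} [Field F] [AddCommGroup V] [Module F V]

namespace Spin

variable (S : Spin r Γ F V)

theorem exists_lift {g : Perm (Fin r)} (hg : sign g = 1) : ∃ x, S.π x = g :=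
  exists_preimage S.range (mem_alternatingGroup.2 hg)

theorem sign_map (x : Γ) : sign (S.π x) = 1 :=
  mem_alternatingGroup.1 (S.range ▸ ⟨x, rfl⟩)

theorem z_comm (y : Γ) : y * S.z = S.z * y := by
  rcases S.ker_eq (y * S.z * y⁻¹) (by rw [map_mul, map_mul, map_inv, S.hz, mul_one, mul_inv_cancel]) with h | h
  · exact absurd (by simpa [mul_inv_eq_one] using h : S.z = 1) S.hz1
  · calc y * S.z = y * S.z * y⁻¹ * y := by group
      _ = S.z * y := by rw [h]

theorem zz : S.z * S.z = 1 := by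
  rcases S.ker_eq (S.z * S.z) (by rw [map_mul, S.hz, one_mul]) with h | h
  · exact h
  · exact absurd (mul_eq_left.1 h) S.hz1

theorem z_pow {q : ℕ} (hq : Odd q) : S.z ^ q = S.z := by
  obtain ⟨k, rfl⟩ := hq
  rw [pow_succ, pow_mul, pow_two, S.zz, one_pow, one_mul]

theorem exists_odd {g : Perm (Fin r)} (hg : sign g = 1) {q : ℕ} (hq : Odd q) (hgq : g ^ q = 1) :
    ∃ x, S.π x = g ∧ x ^ q = 1 := by
  obtain ⟨x, hx⟩ := S.exists_lift hg
  rcases S.ker_eq (x ^ q) (by rw [map_pow, hx, hgq]) with h | h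
  · exact ⟨x, hx, h⟩
  · refine ⟨x * S.z, by rw [map_mul, hx, S.hz, mul_one], ?_⟩
    rw [Commute.mul_pow (S.z_comm x), h, S.z_pow hq, S.zz]

theorem odd_eq {q : ℕ} (hq : Odd q) {x y : Γ} (hx : x ^ q = 1) (hy : y ^ q = 1) (e : S.π x = S.π y) :
    x = y := by
  rcases S.ker_eq (x⁻¹ * y) (by rw [map_mul, map_inv, e, inv_mul_cancel]) with h | h
  · exact inv_mul_eq_one.1 h
  · exfalso
    rw [inv_mul_eq_iff_eq_mul] at h
    rw [h, Commute.mul_pow (S.z_comm x), hx, one_mul, S.z_pow hq] at hy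
    exact S.hz1 hy

theorem lift_conj {q : ℕ} (hq : Odd q) {x y : Γ} (hx : x ^ q = 1) (m : ℕ)
    (e : S.π x ^ m * S.π y = S.π y * S.π x) : x ^ m * y = y * x := by
  have h : y * x * y⁻¹ = x ^ m := S.odd_eq hq (by rw [conj_pow, hx, mul_one, mul_inv_cancel])
    (by rw [← pow_mul, mul_comm, pow_mul, hx, one_pow])
    (by rw [map_mul, map_mul, map_inv, map_pow, ← e, mul_inv_cancel_right])
  rw [← h, inv_mul_cancel_right]

theorem lift_comm {q : ℕ} (hq : Odd q) {x y : Γ} (hx : x ^ q = 1) (e : Commute (S.π y) (S.π x)) :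
    Commute y x := by
  have := S.lift_conj hq hx (y := y) 1 (by rw [pow_one]; exact e.symm.eq)
  rw [pow_one] at this
  exact this.symm

theorem R_injective (x : Γ) : Function.Injective (S.R x) := fun a b e => by
  have := congrArg (S.R x⁻¹) e
  simpa [← Module.End.mul_apply, ← map_mul] using this

theorem eig_inv {x y : Γ} (h : Commute y x) {μ : F} {v : V} (hv : v ∈ (S.R x).eigenspace μ) :
    S.R y v ∈ (S.R x).eigenspace μ := by
  rw [Module.End.mem_eigenspace_iff] at hv ⊢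
  rw [← Module.End.mul_apply, ← map_mul, ← h.eq, map_mul, Module.End.mul_apply, hv, map_smul]

/-- No element over a nontrivial even permutation fixes a subspace pointwise. -/
theorem no_fix {W : Submodule F V} (hW : W ≠ ⊥) (h2 : (2 : F) ≠ 0) {k h : Γ}
    (hk : ∀ v ∈ W, S.R k v = v) (hh : ∀ v ∈ W, S.R h⁻¹ v ∈ W) {a b c d : Fin r} (hab : a ≠ b) (hac : a ≠ c)
    (had : a ≠ d) (hbc : b ≠ c) (hbd : b ≠ d) (hcd : c ≠ d)
    (e : S.π k * (S.π h * S.π k * (S.π h)⁻¹) = ds a b c d) : False := by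
  set x := k * (h * k * h⁻¹) with hx
  have hxz : x * x = S.z := S.dsq x a b c d hab hac had hbc hbd hcd (by
    rw [hx, map_mul, map_mul, map_mul, map_inv, e])
  have hfix : ∀ v ∈ W, S.R x v = v := by
    intro v hv
    rw [hx, map_mul, map_mul, map_mul, Module.End.mul_apply, Module.End.mul_apply, Module.End.mul_apply,
      hk _ (hh v hv), ← Module.End.mul_apply (S.R h), ← map_mul, mul_inv_cancel, map_one, Module.End.one_apply,
      hk v hv]
  obtain ⟨v, hv, hv0⟩ := Submodule.exists_mem_ne_zero_of_ne_bot hW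
  have h' : S.R (x * x) v = v := by rw [map_mul, Module.End.mul_apply, hfix v hv, hfix v hv]
  rw [hxz, S.Rz, LinearMap.neg_apply, Module.End.one_apply] at h'
  have h2v : (2 : F) • v = 0 := by rw [two_smul]; nth_rw 1 [← h']; exact neg_add_cancel v
  exact hv0 ((smul_eq_zero.1 h2v).resolve_left h2)

/-- Two lifts of a four-group make an invariant subspace even-dimensional. -/
theorem even_dim [FiniteDimensional F V] {W : Submodule F V} (h2 : (2 : F) ≠ 0) {a b c d : Fin r} (hab : a ≠ b)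
    (hac : a ≠ c) (had : a ≠ d) (hbc : b ≠ c) (hbd : b ≠ d) (hcd : c ≠ d)
    (hW : ∀ y, S.π y = ds a b c d ∨ S.π y = ds a c b d → ∀ v ∈ W, S.R y v ∈ W) : Even (finrank F W) := by
  obtain ⟨A, hA⟩ := S.exists_lift (sign_ds hab hcd)
  obtain ⟨B, hB⟩ := S.exists_lift (sign_ds hac hbd)
  have hAA := S.dsq A a b c d hab hac had hbc hbd hcd hA
  have hBB := S.dsq B a c b d hac hab had hbc.symm hcd hbd hB
  have eAB : ds a b c d * ds a c b d = ds a d b c := by
    refine Equiv.ext fun x => ?_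
    simp only [ds, Perm.mul_apply]
    by_cases h1 : x = a
    · subst h1; simp [swap_apply_of_ne_of_ne, hab, hac, had, hbc, hbd, hcd, hab.symm, hac.symm, had.symm, hbc.symm, hbd.symm, hcd.symm]
    by_cases h3 : x = b
    · subst h3; simp [swap_apply_of_ne_of_ne, hab, hac, had, hbc, hbd, hcd, hab.symm, hac.symm, had.symm, hbc.symm, hbd.symm, hcd.symm]
    by_cases h4 : x = c
    · subst h4; simp [swap_apply_of_ne_of_ne, hab, hac, had, hbc, hbd, hcd, hab.symm, hac.symm, had.symm, hbc.symm, hbd.symm, hcd.symm]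
    by_cases h5 : x = d
    · subst h5; simp [swap_apply_of_ne_of_ne, hab, hac, had, hbc, hbd, hcd, hab.symm, hac.symm, had.symm, hbc.symm, hbd.symm, hcd.symm]
    simp [swap_apply_of_ne_of_ne, h1, h3, h4, h5]
  have hAB := S.dsq (A * B) a d b c had hab hac hbd.symm hcd.symm hbc (by rw [map_mul, hA, hB, eAB])
  have hanti : B * A = S.z * (A * B) := by
    calc B * A = A⁻¹ * (A * B * (A * B)) * B⁻¹ := by group
      _ = A⁻¹ * S.z * B⁻¹ := by rw [hAB]
      _ = S.z * (A⁻¹ * B⁻¹) := by rw [S.z_comm A⁻¹]; group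
      _ = S.z * ((A * S.z) * (B * S.z)) := by
        rw [show A⁻¹ = A * S.z from inv_eq_of_mul_eq_one_right (by rw [← mul_assoc, hAA, S.zz]),
          show B⁻¹ = B * S.z from inv_eq_of_mul_eq_one_right (by rw [← mul_assoc, hBB, S.zz])]
      _ = S.z * (A * B) * (S.z * S.z) := by
        rw [mul_assoc A, ← mul_assoc S.z B, ← S.z_comm B]; group
      _ = S.z * (A * B) := by rw [S.zz, mul_one]
  let X : Module.End F W := (S.R A).restrict (hW A (Or.inl hA))
  let Y : Module.End F W := (S.R B).restrict (hW B (Or.inr hB))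
  have hXX : X * X = -1 := LinearMap.ext fun v => Subtype.ext (by
    show S.R A (S.R A v.1) = _
    rw [← Module.End.mul_apply, ← map_mul, hAA, S.Rz]; rfl)
  have hYY : Y * Y = -1 := LinearMap.ext fun v => Subtype.ext (by
    show S.R B (S.R B v.1) = _
    rw [← Module.End.mul_apply, ← map_mul, hBB, S.Rz]; rfl)
  have hYX : Y * X = (-1 : F) • (X * Y) := LinearMap.ext fun v => Subtype.ext (by
    show S.R B (S.R A v.1) = (-1 : F) • S.R A (S.R B v.1)
    rw [← Module.End.mul_apply, ← map_mul, hanti, map_mul, map_mul, S.Rz, neg_one_smul]; rfl)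
  have hd : ∀ Z : Module.End F W, Z * Z = -1 → LinearMap.det Z ≠ 0 := fun Z hZ e => by
    have := congrArg LinearMap.det hZ
    rw [map_mul, e, mul_zero, show (-1 : Module.End F W) = (-1 : F) • 1 from (neg_one_smul F 1).symm, LinearMap.det_smul, map_one,
      mul_one] at this
    exact pow_ne_zero _ (neg_ne_zero.2 one_ne_zero) this.symm
  have hdet := congrArg LinearMap.det hYX
  rw [LinearMap.det_smul, map_mul, map_mul, mul_comm (LinearMap.det Y)] at hdet
  have h1 : (-1 : F) ^ finrank F W = 1 :=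
    (mul_eq_right₀ (mul_ne_zero (hd X hXX) (hd Y hYY))).1 hdet.symm
  rcases Nat.even_or_odd (finrank F W) with h | h
  · exact h
  · rw [h.neg_one_pow] at h1
    exact absurd (by linear_combination -h1) h2

theorem exists_eigen_ne_one [FiniteDimensional F V] [IsAlgClosed F] {q : ℕ} (hqF : (q : F) ≠ 0)
    {Z : Module.End F V} (hZ : Z ^ q = 1) (hne : Z ≠ 1) : ∃ μ : F, μ ≠ 1 ∧ ∃ v : V, v ≠ 0 ∧ Z v = μ • v := by
  by_contra hc
  push Not at hc
  refine hne ?_
  have h := fix_range (Y := 0) hqF hZ (fun μ hμ v hv => by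
    by_cases hv0 : v = 0
    · simp [hv0]
    · exact absurd hv (hc μ hμ v hv0))
  simp only [zero_sub, neg_mul, one_mul, neg_eq_zero, sub_eq_zero] at h
  exact h

/-- Restriction along an embedding of the index set to an invariant subspace. -/
def sub {s : ℕ} (S : Spin r Γ F V) (ι : Fin s ↪ Fin r) : Subgroup (Γ × Perm (Fin s)) where
  carrier := {p | S.π p.1 = via ι p.2}
  one_mem' := by simp
  mul_mem' {a b} ha hb := by simp only [Set.mem_setOf_eq, Prod.fst_mul, Prod.snd_mul, map_mul] at *; rw [ha, hb]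
  inv_mem' {a} ha := by simp only [Set.mem_setOf_eq, Prod.fst_inv, Prod.snd_inv, map_inv] at *; rw [ha]

theorem mem_sub {s : ℕ} {ι : Fin s ↪ Fin r} {p : Γ × Perm (Fin s)} : p ∈ S.sub ι ↔ S.π p.1 = via ι p.2 :=
  Iff.rfl

/-- The restricted cover. -/
def restrict {s : ℕ} (ι : Fin s ↪ Fin r) (W : Submodule F V)
    (hW : ∀ (y : Γ) (h : Perm (Fin s)), S.π y = via ι h → ∀ v ∈ W, S.R y v ∈ W) :
    Spin s (S.sub ι) F W where
  π := (MonoidHom.snd Γ (Perm (Fin s))).comp (S.sub ι).subtype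
  R :=
    { toFun := fun p => (S.R p.1.1).restrict (hW p.1.1 p.1.2 p.2)
      map_one' := LinearMap.ext fun v => Subtype.ext (by simp)
      map_mul' := fun p q => LinearMap.ext fun v => Subtype.ext (by simp [map_mul]) }
  z := ⟨(S.z, 1), by rw [mem_sub]; simp [S.hz]⟩
  range := by
    ext h
    constructor
    · rintro ⟨⟨⟨y, h⟩, hy⟩, rfl⟩
      exact mem_alternatingGroup.2 (((sign_via ι h).symm.trans (congrArg sign hy.symm)).trans (S.sign_map y))
    · intro hh
      obtain ⟨y, hy⟩ := S.exists_lift ((sign_via ι h).trans (mem_alternatingGroup.1 hh))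
      exact ⟨⟨(y, h), hy⟩, rfl⟩
  ker_eq := by
    rintro ⟨⟨y, h⟩, hy⟩ (he : h = 1)
    subst he
    rw [mem_sub, map_one] at hy
    rcases S.ker_eq y hy with rfl | rfl
    · exact Or.inl rfl
    · exact Or.inr rfl
  hz := rfl
  Rz := LinearMap.ext fun v => Subtype.ext (by simp [S.Rz])
  hz1 := fun e => S.hz1 (congrArg (fun p : S.sub ι => p.1.1) e)
  dsq := by
    rintro ⟨⟨y, h⟩, hy⟩ a b c d hab hac had hbc hbd hcd (he : h = ds a b c d)
    subst he
    rw [mem_sub] at hy
    have hinj := ι.injective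
    have e := S.dsq y (ι a) (ι b) (ι c) (ι d) (hinj.ne hab) (hinj.ne hac) (hinj.ne had) (hinj.ne hbc) (hinj.ne hbd)
      (hinj.ne hcd) (hy.trans (via_ds ι a b c d))
    refine Subtype.ext (Prod.ext e ?_)
    show ds a b c d * ds a b c d = 1
    refine via_injective ι ?_
    rw [map_mul, ← hy, ← map_mul, e, S.hz, map_one]

/-- A lift of an odd-order element, with an eigenspace and the element conjugating it. -/
theorem cycle [FiniteDimensional F V] [IsAlgClosed F] [Nontrivial V] (h2 : (2 : F) ≠ 0) {s : ℕ} (ι : Fin s ↪ Fin r)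
    {q : ℕ} (hq : Odd q) (hqF : (q : F) ≠ 0) (m : ℕ) (x g g1 g2 : Perm (Fin s)) (a b c d : Fin s)
    (hne : a ≠ b ∧ a ≠ c ∧ a ≠ d ∧ b ≠ c ∧ b ≠ d ∧ c ≠ d) (hsx : sign x = 1) (hsg : sign g = 1) (hsg1 : sign g1 = 1)
    (hsg2 : sign g2 = 1) (hxq : x ^ q = 1) (hgx : x ^ m * g = g * x)
    (hs : g1 * x * g1⁻¹ * (g2 * x * g2⁻¹) = ds a b c d) :
    ∃ X G μ, S.π X = via ι x ∧ X ^ q = 1 ∧ S.R X ^ m * S.R G = S.R G * S.R X ∧ μ ≠ 1 ∧
      (S.R X).eigenspace μ ≠ ⊥ := by
  obtain ⟨X, hX, hXq⟩ := S.exists_odd ((sign_via ι x).trans hsx) hq (by rw [← map_pow, hxq, map_one])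
  obtain ⟨G, hG⟩ := S.exists_lift ((sign_via ι g).trans hsg)
  obtain ⟨G1, hG1⟩ := S.exists_lift ((sign_via ι g1).trans hsg1)
  obtain ⟨G2, hG2⟩ := S.exists_lift ((sign_via ι g2).trans hsg2)
  obtain ⟨nab, nac, nad, nbc, nbd, ncd⟩ := hne
  have hinj := ι.injective
  have hne : S.R X ≠ 1 := by
    intro e
    refine S.no_fix (W := ⊤) top_ne_bot h2 (k := G1 * X * G1⁻¹) (h := G2 * G1⁻¹) (fun v _ => ?_)
      (fun _ _ => Submodule.mem_top) (hinj.ne nab) (hinj.ne nac) (hinj.ne nad) (hinj.ne nbc) (hinj.ne nbd)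
      (hinj.ne ncd) ?_
    · rw [map_mul, map_mul, e, mul_one, ← map_mul, mul_inv_cancel, map_one, Module.End.one_apply]
    · rw [← via_ds, ← hs]
      simp only [map_mul, map_inv, hX, hG1, hG2]
      group
  obtain ⟨μ, hμ, v, hv, hv'⟩ := exists_eigen_ne_one hqF (by rw [← map_pow, hXq, map_one]) hne
  refine ⟨X, G, μ, hX, hXq, ?_, hμ, fun e => hv ?_⟩
  · rw [← map_pow, ← map_mul, S.lift_conj hq hXq m (by rw [hX, hG, ← map_pow, ← map_mul, hgx, map_mul]), map_mul]
  · have := Module.End.mem_eigenspace_iff.2 hv'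
    rwa [e, Submodule.mem_bot] at this

/-- The eigenspace of a lift is invariant under lifts of disjoint elements. -/
theorem eig_invariant {s : ℕ} (ι : Fin s ↪ Fin r) {q : ℕ} (hq : Odd q) {X : Γ} (hX : X ^ q = 1)
    (hfix : ∀ y, S.π X (ι y) = ι y) (μ : F) (y : Γ) (h : Perm (Fin s)) (e : S.π y = via ι h) :
    ∀ v ∈ (S.R X).eigenspace μ, S.R y v ∈ (S.R X).eigenspace μ := fun _ hv =>
  S.eig_inv (S.lift_comm hq hX (by rw [e]; exact via_commute ι h hfix)) hv

end Spin

end Cfsg.Agent.Lib.AltDeg
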